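import Cfsg.Agent.J8.Iso

/-! # Relative recognition of groups of Hall-Janko type -/

set_option autoImplicit false

namespace Cfsg.Agent.J8

open Cfsg Cfsg.Agent.GT Cfsg.Agent.TT Cfsg.Agent.XL Subgroup

variable {Y G : Type*} [Group Y] [Group G] {K M : Subgroup (Y × G)} {Q : Subgroup Y} {z0 g x0 : Y} {z x : G}

theorem kz_lq [Finite G] (h : KZ K (z0, z)) (q : LQ Q z0) :
    LQ ((K ⊓ Q.comap (MonoidHom.fst Y G)).map (MonoidHom.snd Y G)) z := by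
  have l : ∀ c ∈ Q, ∃ d, (c, d) ∈ K ⊓ Q.comap (MonoidHom.fst Y G) := fun c hc =>
    let ⟨d, e⟩ := h.fst c (q.le_cent1 hc); ⟨d, e, hc⟩
  have e : ES (K ⊓ Q.comap (MonoidHom.fst Y G)) (z0, z) :=
    ⟨⟨h.mem, q.mem⟩, h.gr _ (mul_mem h.mem h.mem) q.zz, fun o => q.ne (congrArg Prod.fst o),
      fun p a => (mem_cent1.1 (h.cent a.1)).symm,
      fun p a r b => (q.conj _ a.2 _ b.2).imp (h.gr.ext (mul_mem (mul_mem a.1 b.1) (inv_mem a.1)) b.1)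
        (h.gr.ext (mul_mem (mul_mem a.1 b.1) (inv_mem a.1)) (mul_mem b.1 h.mem)),
      fun p a => (q.sq _ a.2).imp (h.gr _ (mul_mem a.1 a.1)) (h.gr.ext (mul_mem a.1 a.1) h.mem),
      fun p a b => (q.cent _ a.2 fun c hc => let ⟨d, e⟩ := l c hc; (b _ e).map (MonoidHom.fst Y G)).imp (h.gr _ a.1)
        (h.gr.ext a.1 h.mem),
      let ⟨a, ha, b, hb, c⟩ := q.nonab; let ⟨_, u⟩ := l a ha; let ⟨_, v⟩ := l b hb
      ⟨_, u, _, v, fun o => c (o.map (MonoidHom.fst Y G))⟩⟩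
  have e' := e.map (MonoidHom.snd Y G) fun p a => h.gr' p a.1
  refine ⟨e', fun d hd => ?_, fun d hd => M24.mem_normalizer_of_conj ?_⟩
  · obtain ⟨c, a⟩ := h.snd d (cent_le_cent1 e'.mem hd)
    refine ⟨_, ⟨a, q.cQ fun y hy => ?_⟩, rfl⟩
    obtain ⟨w, b⟩ := l y hy
    exact ((h.comm' b.1 a (hd _ ⟨_, b, rfl⟩)).map (MonoidHom.fst Y G)).eq
  · obtain ⟨c, a⟩ := h.snd d hd
    rintro _ ⟨p, b, rfl⟩
    exact ⟨(c, d) * p * (c, d)⁻¹, mem_inf.2 ⟨mul_mem (mul_mem a b.1) (inv_mem a),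
      conj_mem_of_mem_norm (H := Q) (q.nQ (h.c1 a)) b.2⟩, rfl⟩

variable [Finite Y] [Finite G]

theorem iso' (h : LT Q z0 g 2 60) (h2 : x0 * x0 = 1) (h1 : x0 ≠ 1) (n : ¬ IsConj x0 z0) :
    ∃ φ : X ≃* Y, φ (m 0) = z0 ∧ φ (m 1) = g * z0 * g⁻¹ ∧ (Mb m Ql).map φ.toMonoidHom = Q := by
  obtain ⟨π, hB⟩ := h.xp5
  obtain ⟨π0, hA⟩ := lt0.xp5
  obtain ⟨Δ, K, hK⟩ := exists_KH5 hA hB
  obtain ⟨M, r⟩ := hK.rh (by simpa only [gz] using hs)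
  simp only [gz] at r
  obtain ⟨φ, e⟩ := rel0 h.toLQ r h2 h1 n
  refine ⟨φ, e _ (mem_sup_left r.kz.mem), gz ▸ e _ (mem_sup_left (hK.kg.dg hK.dg.ss)), eq_of_le_of_card_ge ?_ ?_⟩
  · rintro _ ⟨x, hx, rfl⟩
    obtain ⟨d, hd⟩ := r.kz.fst x (esQ.le_cent1 hx)
    exact (show φ x = d from e _ (mem_sup_left hd)) ▸ (hK.dg.mem _ (hK.mem_Δ hd hx)).2.1
  · rw [card_map_of_injective φ.injective, h.cQ', lt0.cQ']

theorem rel (h : LT Q z0 g 2 60) (h2 : x0 * x0 = 1) (h1 : x0 ≠ 1) (n : ¬ IsConj x0 z0)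
    (r : RH z0 (g * z0 * g⁻¹) z K M) (k2 : x * x = 1) (k1 : x ≠ 1) (k : ¬ IsConj x z) :
    ∃ φ : Y ≃* G, ∀ p ∈ K ⊔ M, φ p.1 = p.2 := by
  obtain ⟨e, a, b, -⟩ := iso' h h2 h1 n
  rw [← b, ← a] at r
  exact r.transport e fun _ _ r => rel0 (kz_lq r.kz lt0.toLQ) r k2 k1 k

end Cfsg.Agent.J8
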