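import Cfsg.Agent.XL.Rel2

/-! # Groups with a self-centralizing four-group -/

set_option autoImplicit false

namespace Cfsg.Agent.J8

open Cfsg Cfsg.Agent.GT Cfsg.Agent.TT Cfsg.Agent.XL Cfsg.Agent.M24 Subgroup

variable {G : Type*} [Group G] {H : Subgroup G} {z s x g v w j : G}

theorem alt_of_index {D : Type*} [Group D] [Finite D] {B : Subgroup D} {n : ℕ} (hn : 2 ≤ n) (hi : B.index = n)
    (hc : B.normalCore = ⊥) (h2 : 2 * Nat.card D = n.factorial) : Nonempty (D ≃* alternatingGroup (Fin n)) := by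
  classical
  have e : D ⧸ B ≃ Fin n := Finite.equivFinOfCardEq hi
  let θ : D →* Equiv.Perm (Fin n) := e.permCongrHom.toMonoidHom.comp (MulAction.toPermHom D (D ⧸ B))
  have inj : Function.Injective θ := e.permCongrHom.injective.comp
    ((MonoidHom.ker_eq_bot_iff _).1 (by rw [← normalCore_eq_ker, hc]))
  haveI : Nontrivial (Fin n) := Fin.nontrivial_iff_two_le.2 hn
  have r : θ.range = alternatingGroup (Fin n) := Equiv.Perm.eq_alternatingGroup_of_index_eq_two (by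
    have a := card_mul_index θ.range
    rw [← Nat.card_congr (MonoidHom.ofInjective inj).toEquiv, Nat.card_perm, Nat.card_fin, ← h2, mul_comm 2] at a
    exact Nat.eq_of_mul_eq_mul_left Nat.card_pos a)
  exact ⟨(MonoidHom.ofInjective inj).trans (MulEquiv.subgroupCongr r)⟩

/-- a four-group with an element of order three -/
structure K3 (z s x : G) : Prop where
  zz : z * z = 1
  ss : s * s = 1
  zs : Commute z s
  z1 : z ≠ 1
  x3 : x * (x * x) = 1
  xz : x * z * x⁻¹ = s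
  xs : x * s * x⁻¹ = s * z

theorem K3.s1 (h : K3 z s x) : s ≠ 1 := fun e => h.z1 (conj_eq_one_iff.1 (h.xz.trans e))

theorem K3.sz1 (h : K3 z s x) : s * z ≠ 1 := fun e => h.s1 (conj_eq_one_iff.1 (h.xs.trans e))

theorem K3.ne (h : K3 z s x) : s ≠ z := fun e => h.sz1 (by rw [e, h.zz])

theorem K3.xsz (h : K3 z s x) : x * (s * z) * x⁻¹ = z := by
  rw [← conj_mul, h.xs, h.xz, mul_assoc, h.zs.eq, ← mul_assoc, h.ss, one_mul]

theorem K3.xxz (h : K3 z s x) : x * x * z * (x * x)⁻¹ = s * z := by rw [← h.xs, ← h.xz]; group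

theorem K3.mem (h : K3 z s x) : v ∈ VV z s ↔ v = 1 ∨ v = z ∨ v = s ∨ v = s * z := mem_VV h.zz h.ss h.zs

theorem K3.sq (h : K3 z s x) (hv : v ∈ VV z s) : v * v = 1 := VV_sq h.zz h.ss h.zs hv

theorem K3.szV (_h : K3 z s x) : s * z ∈ VV z s := mul_mem (sVV z s) (zVV z s)

theorem K3.comm (h : K3 z s x) (hv : v ∈ VV z s) (hw : w ∈ VV z s) : Commute v w := by
  have a : ∀ u ∈ VV z s, Commute u z ∧ Commute u s := fun u hu => by
    rcases h.mem.1 hu with rfl | rfl | rfl | rfl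
    exacts [⟨Commute.one_left _, Commute.one_left _⟩, ⟨Commute.refl _, h.zs⟩, ⟨h.zs.symm, Commute.refl _⟩,
      ⟨h.zs.symm.mul_left (Commute.refl _), (Commute.refl _).mul_left h.zs⟩]
  rcases h.mem.1 hw with rfl | rfl | rfl | rfl
  exacts [Commute.one_right _, (a v hv).1, (a v hv).2, (a v hv).2.mul_right (a v hv).1]

theorem K3.xn [Finite G] (h : K3 z s x) : x ∈ N[VV z s] :=
  norm_VV (h.xz ▸ sVV z s) (h.xs ▸ h.szV)

theorem K3.fpf (h : K3 z s x) (hv : v ∈ VV z s) (c : Commute x v) : v = 1 := by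
  have c' := commute_iff_conj.1 c
  rcases h.mem.1 hv with e | e | e | e <;> rw [e] at c'
  · exact e
  · exact absurd (h.xz.symm.trans c') h.ne
  · exact absurd (mul_eq_left.1 (h.xs.symm.trans c')) h.z1
  · exact absurd (mul_eq_right.1 (h.xsz.symm.trans c').symm) h.s1

theorem K3.cj (h : K3 z s x) (hv : v ∈ VV z s) (v1 : v ≠ 1) :
    ∃ b, (b = 1 ∨ b = x ∨ b = x * x) ∧ b * z * b⁻¹ = v := by
  rcases h.mem.1 hv with e | e | e | e
  exacts [absurd e v1, ⟨1, by simp, by simp [e]⟩, ⟨x, by simp, e ▸ h.xz⟩, ⟨x * x, by simp, e ▸ h.xxz⟩]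

theorem K3.card (h : K3 z s x) : Nat.card (VV z s) = 4 := by
  have e : (VV z s : Set G) = {1, z, s, s * z} := Set.ext fun v => by simpa using h.mem
  have := h.z1; have := h.s1; have := h.sz1; have := h.ne.symm
  rw [← SetLike.coe_sort_coe, e, Nat.card_coe_set_eq, Set.ncard_insert_of_notMem (by simp [eq_comm, *]),
    Set.ncard_insert_of_notMem (by simp [*]), Set.ncard_pair (by simp [*])]

theorem K3.xinv (h : K3 z s x) : x⁻¹ = x * x := inv_eq_of_mul_eq_one_right h.x3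

theorem K3.xx1 (h : K3 z s x) : x * x ≠ 1 := fun e => h.s1 (by
  have := h.xxz; rw [e] at this; simpa using this)

theorem K3.ord (h : K3 z s x) : orderOf x = 3 :=
  haveI := Fact.mk Nat.prime_three
  orderOf_eq_prime (by rw [← h.x3, pow_three]) fun e => h.xx1 (by rw [e, one_mul])

/-- every element of `x V` is conjugate to `x` -/
theorem K3.coset (h : K3 z s x) (hv : v ∈ VV z s) : ∃ u ∈ VV z s, u * (x * v) * u⁻¹ = x := by
  have k : ∀ u ∈ VV z s, x * u * x⁻¹ = u * (x * v * x⁻¹) → ∃ u ∈ VV z s, u * (x * v) * u⁻¹ = x :=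
    fun u hu e => ⟨u, hu, by
      have : x * u = u * (x * v) := by rw [← mul_left_inj x⁻¹, e]; group
      rw [← this, mul_inv_cancel_right]⟩
  rcases h.mem.1 hv with rfl | rfl | rfl | rfl
  · exact k 1 (one_mem _) (by simp)
  · exact k _ h.szV (by rw [h.xsz, h.xz, mul_assoc, h.zs.eq, ← mul_assoc, h.ss, one_mul])
  · exact k _ (zVV _ _) (by rw [h.xz, h.xs, ← mul_assoc, h.zs.eq, mul_assoc, h.zz, mul_one])
  · exact k _ (sVV _ _) (by rw [h.xs, h.xsz])

/-- the four-group is the centralizer of its involution -/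
structure K4 (H : Subgroup G) (z s x : G) : Prop extends K3 z s x where
  zH : z ∈ H
  xH : x ∈ H
  cz : ∀ g ∈ H, Commute g z → g ∈ VV z s

theorem K4.le (h : K4 H z s x) : VV z s ≤ H := (closure_le _).2 (by
  rintro _ (rfl | rfl)
  exacts [h.zH, h.xz ▸ mul_mem (mul_mem h.xH h.zH) (inv_mem h.xH)])

theorem K4.bH (h : K4 H z s x) {b : G} (hb : b = 1 ∨ b = x ∨ b = x * x) : b ∈ H := by
  rcases hb with rfl | rfl | rfl
  exacts [one_mem _, h.xH, mul_mem h.xH h.xH]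

variable [Finite G]

theorem K3.bN (h : K3 z s x) {b : G} (hb : b = 1 ∨ b = x ∨ b = x * x) : b ∈ N[VV z s] := by
  rcases hb with rfl | rfl | rfl
  exacts [one_mem _, h.xn, mul_mem h.xn h.xn]

omit [Finite G] in
theorem K4.dec (h : K4 H z s x) (hg : g ∈ H) (e : g * z * g⁻¹ ∈ VV z s) :
    ∃ b, (b = 1 ∨ b = x ∨ b = x * x) ∧ ∃ v ∈ VV z s, g = b * v := by
  obtain ⟨b, hb, c⟩ := h.cj e fun o => h.z1 (conj_eq_one_iff.1 o)
  refine ⟨b, hb, b⁻¹ * g, h.cz _ (mul_mem (inv_mem (h.bH hb)) hg) (commute_iff_conj.2 ?_), by group⟩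
  rw [show b⁻¹ * g * z * (b⁻¹ * g)⁻¹ = b⁻¹ * (g * z * g⁻¹) * b by group, ← c]; group

theorem K4.fix (h : K4 H z s x) (hg : g ∈ H) (hv : v ∈ VV z s) (v1 : v ≠ 1) (e : g * v * g⁻¹ ∈ VV z s) :
    g ∈ N[VV z s] := by
  obtain ⟨b, hb, rfl⟩ := h.cj hv v1
  obtain ⟨c, hc, u, hu, e'⟩ := h.dec (mul_mem hg (h.bH hb)) (by convert e using 1; group)
  rw [eq_mul_inv_of_mul_eq e']
  exact mul_mem (mul_mem (h.bN hc) (le_normalizer hu)) (inv_mem (h.bN hb))

theorem K4.cv (h : K4 H z s x) (hg : g ∈ H) (hv : v ∈ VV z s) (v1 : v ≠ 1) (e : Commute g v) : g ∈ VV z s := by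
  obtain ⟨b, hb, rfl⟩ := h.cj hv v1
  have := conj_mem_of_mem_norm (h.bN hb) (h.cz (b⁻¹ * g * b⁻¹⁻¹)
    (mul_mem (mul_mem (inv_mem (h.bH hb)) hg) (inv_mem (inv_mem (h.bH hb))))
    (by simpa [mul_assoc] using (commute_conj_iff b⁻¹).2 e))
  simpa [mul_assoc] using this

theorem K4.invN (h : K4 H z s x) (hg : g ∈ H) (n : g ∈ N[VV z s]) (gg : g * g = 1) : g ∈ VV z s := by
  obtain ⟨b, hb, v, hv, rfl⟩ := h.dec hg (conj_mem_of_mem_norm n (zVV z s))
  have a : b * b * (b⁻¹ * v * b⁻¹⁻¹ * v) = 1 := by rw [← gg]; group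
  have c : b * b ∈ VV z s := by
    rw [eq_inv_of_mul_eq_one_left a]
    exact inv_mem (mul_mem (conj_mem_of_mem_norm (inv_mem (h.bN hb)) hv) hv)
  rcases hb with rfl | rfl | rfl
  · simpa using hv
  · exact absurd (h.fpf c ((Commute.refl _).mul_right (Commute.refl _))) h.xx1
  · rw [mul_assoc, ← mul_assoc x x (x), ← mul_assoc, ← mul_assoc, mul_assoc x x x, h.x3, one_mul] at c
    exact absurd (by rw [h.fpf c (Commute.refl _), one_mul]) h.xx1

theorem K4.uniq (h : K4 H z s x) (hj : j ∈ H) (jj : j * j = 1) (jV : j ∉ VV z s) (hv : v ∈ VV z s)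
    (e : j * v * (j * v) = 1) : v = 1 := by
  by_contra v1
  refine jV (h.cv hj hv v1 ?_)
  have := inv_of_sq e
  rw [mul_inv_rev, inv_of_sq jj, inv_of_sq (h.sq hv)] at this
  exact this.symm

theorem K4.ex (h : K4 H z s x) (hg : g ∈ H) (n : g ∉ N[VV z s]) : ∃ v ∈ VV z s, g * v * (g * v) = 1 := by
  let S := {j : G // j ∈ H ∧ j * j = 1 ∧ j ∉ VV z s}
  have k : ∀ g ∈ H, g ∉ N[VV z s] → g * z * g⁻¹ ∈ H ∧ g * z * g⁻¹ * (g * z * g⁻¹) = 1 ∧ g * z * g⁻¹ ∉ VV z s :=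
    fun g a b => ⟨mul_mem (mul_mem a h.zH) (inv_mem a), conj_mul_self _ h.zz, fun c => b (h.fix a (zVV z s) h.z1 c)⟩
  let F : S → S := fun j => ⟨j.1 * z * j.1⁻¹, k j.1 j.2.1 fun c => j.2.2.2 (h.invN j.2.1 c j.2.2.1)⟩
  have cm : ∀ a ∈ H, ∀ b ∈ H, a * z * a⁻¹ = b * z * b⁻¹ → a⁻¹ * b ∈ VV z s := fun a ha b hb e =>
    h.cz _ (mul_mem (inv_mem ha) hb) (commute_iff_conj.2 (by
      rw [show a⁻¹ * b * z * (a⁻¹ * b)⁻¹ = a⁻¹ * (b * z * b⁻¹) * a by group, ← e]; group))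
  have inj : Function.Injective F := fun a b e => Subtype.ext (by
    have := h.uniq a.2.1 a.2.2.1 a.2.2.2 (cm _ a.2.1 _ b.2.1 (congrArg Subtype.val e))
      (by simpa using b.2.2.1)
    exact inv_mul_eq_one.1 this)
  obtain ⟨a, e⟩ := Finite.injective_iff_surjective.1 inj ⟨_, k g hg n⟩
  exact ⟨_, cm g hg a.1 a.2.1 (congrArg Subtype.val e).symm, by simpa using a.2.2.1⟩

theorem K4.cx (h : K4 H z s x) (hw : w ∈ H) (c : Commute w x) : w = 1 ∨ w = x ∨ w = x * x := by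
  have k : ∀ w ∈ H, w ∉ N[VV z s] → Commute w x → w * w = 1 := fun w hw n c => by
    obtain ⟨v, hv, e⟩ := h.ex hw n
    have a : w * v ∉ VV z s := fun o => n (le_normalizer (by simpa using mul_mem o (inv_mem hv)))
    have hv' := conj_mem_of_mem_norm h.xn hv
    have b : w * v * (v⁻¹ * (x * v * x⁻¹)) = x * (w * v) * x⁻¹ := by
      rw [← mul_assoc x w, ← c.eq]; group
    have d := h.uniq (mul_mem hw (h.le hv)) e a (mul_mem (inv_mem hv) hv') (by rw [b]; exact conj_mul_self _ e)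
    have := h.fpf hv (commute_iff_conj.2 (inv_mul_eq_one.1 d).symm)
    simpa [this] using e
  by_cases n : w ∈ N[VV z s]
  · obtain ⟨b, hb, v, hv, rfl⟩ := h.dec hw (conj_mem_of_mem_norm n (zVV z s))
    have bx : Commute b x := by
      rcases hb with rfl | rfl | rfl
      exacts [Commute.one_left _, Commute.refl _, (Commute.refl _).mul_left (Commute.refl _)]
    rwa [h.fpf hv (by simpa using (bx.inv_left.mul_left c).symm), mul_one]
  · have a := k (w * x) (mul_mem hw h.xH) (fun o => n (by simpa using mul_mem o (inv_mem h.xn)))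
      (c.mul_left (Commute.refl _))
    rw [c.symm.mul_mul_mul_comm, k w hw n c, one_mul] at a
    exact absurd a h.xx1

theorem K4.inverts (h : K4 H z s x) (hg : g ∈ H) (n : g ∉ N[VV z s]) :
    ∃ u ∈ VV z s, ∃ v ∈ VV z s, (u * g * v) * x * (u * g * v)⁻¹ = x⁻¹ := by
  obtain ⟨v, hv, e⟩ := h.ex hg n
  obtain ⟨v', hv', e'⟩ := h.ex (mul_mem hg h.xH) fun o => n (by simpa using mul_mem o (inv_mem h.xn))
  obtain ⟨u, hu, c⟩ := h.coset (mul_mem (conj_mem_of_mem_norm (inv_mem h.xn) (inv_mem hv)) hv')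
  refine ⟨u, hu, v * u⁻¹, mul_mem hv (inv_mem hu), ?_⟩
  have a : x * (x⁻¹ * v⁻¹ * x⁻¹⁻¹ * v') = (g * v)⁻¹ * (g * x * v') := by group
  rw [a, inv_of_sq e] at c
  have b : x⁻¹ = u * ((g * x * v')⁻¹ * (g * v)⁻¹) * u⁻¹ := by nth_rw 1 [← c]; group
  rw [inv_of_sq e'] at b
  rw [b]; nth_rw 1 [← c]
  calc _ = u * ((g * v * (g * v)) * (g * x * v') * (g * v)⁻¹) * u⁻¹ := by group
    _ = _ := by rw [e]; group

theorem K4.dc (h : K4 H z s x) (hj : j ∈ H) (jx : j * x * j⁻¹ = x⁻¹) (hg : g ∈ H) (n : g ∉ N[VV z s]) :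
    ∃ u ∈ VV z s, ∃ b ∈ H ⊓ N[VV z s], g = u * j * b := by
  obtain ⟨u, hu, v, hv, e⟩ := h.inverts hg n
  have m := mul_mem (mul_mem (h.le hu) hg) (h.le hv)
  have := h.bN (h.cx (w := j⁻¹ * (u * g * v)) (mul_mem (inv_mem hj) m) (commute_iff_conj.2 (by
    rw [show j⁻¹ * (u * g * v) * x * (j⁻¹ * (u * g * v))⁻¹ = j⁻¹ * (u * g * v * x * (u * g * v)⁻¹) * j by group,
      e, ← jx]; group)))
  exact ⟨u⁻¹, inv_mem hu, j⁻¹ * (u * g * v) * v⁻¹, mem_inf.2 ⟨mul_mem (mul_mem (inv_mem hj) m) (inv_mem (h.le hv)),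
    mul_mem this (inv_mem (le_normalizer hv))⟩, by group⟩

theorem K4.cardB (h : K4 H z s x) : Nat.card (H ⊓ N[VV z s] : Subgroup G) = 12 := by
  have a := card_inf_mul_relIndex C1[z] (H ⊓ N[VV z s])
  have e : C1[z] ⊓ (H ⊓ N[VV z s]) = VV z s := le_antisymm (fun g hg => h.cz g hg.2.1 (mem_cent1.1 hg.1))
    fun v hv => ⟨mem_cent1.2 (h.comm hv (zVV z s)), h.le hv, le_normalizer hv⟩
  have b : {y : G | ∃ d ∈ H ⊓ N[VV z s], y = d * z * d⁻¹} = {z, s, s * z} := Set.ext fun y => by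
    constructor
    · rintro ⟨d, hd, rfl⟩
      exact (h.mem.1 (conj_mem_of_mem_norm hd.2 (zVV z s))).resolve_left fun o => h.z1 (conj_eq_one_iff.1 o)
    · intro o
      have o' : y ∈ VV z s := h.mem.2 (Or.inr o)
      obtain ⟨b, hb, c⟩ := h.cj o' (by
        rcases o with rfl | rfl | rfl
        exacts [h.z1, h.s1, h.sz1])
      exact ⟨b, ⟨h.bH hb, h.bN hb⟩, c.symm⟩
  have := h.z1; have := h.s1; have := h.ne.symm
  rw [e, h.card, ← ncard_cj, b, Set.ncard_insert_of_notMem (by simp [*]),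
    Set.ncard_pair (by simp [*])] at a
  exact a.symm

theorem K4.core (h : K4 H z s x) {N : Subgroup G} (hN : N ≤ H ⊓ N[VV z s]) (hn : z ∈ N[N])
    (e : N ⊓ VV z s = ⊥) : N = ⊥ := eq_bot_iff.2 fun g hg => by
  have a : g * (z * g⁻¹ * z⁻¹) ∈ N ⊓ VV z s := ⟨mul_mem hg (conj_mem_of_mem_norm hn (inv_mem hg)), by
    have := mul_mem (conj_mem_of_mem_norm (hN hg).2 (zVV z s)) (inv_mem (zVV z s))
    simpa [mul_assoc] using this⟩
  rw [e, mem_bot] at a
  exact e.le ⟨hg, h.cz g (hN hg).1 (commute_iff_conj.2 (by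
    rw [← mul_left_inj z⁻¹, mul_inv_cancel, ← a]; group))⟩

theorem K4.alt4 (h : K4 H z s x) (hn : H ≤ N[VV z s]) : Nonempty (H ≃* alternatingGroup (Fin 4)) := by
  have c : Nat.card H = 12 := by rw [← h.cardB, inf_eq_left.2 hn]
  have l : zpowers x ≤ H := zpowers_le.2 h.xH
  refine alt_of_index (B := (zpowers x).subgroupOf H) (by norm_num) ?_ ?_ (by rw [c]; rfl)
  · have := card_mul_relIndex l
    rw [Nat.card_zpowers, h.ord, c] at this
    exact show (zpowers x).relIndex H = 4 by omega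
  · set N := ((zpowers x).subgroupOf H).normalCore
    have m : N.map H.subtype ≤ zpowers x := by rintro _ ⟨a, ha, rfl⟩; exact normalCore_le ((zpowers x).subgroupOf H) ha
    refine (map_eq_bot_iff_of_injective _ H.subtype_injective).1 (h.core (m.trans (l.trans (le_inf le_rfl hn)))
      (mem_normalizer_of_conj ?_) (eq_bot_iff.2 fun a ha => ?_))
    · rintro _ ⟨a, ha, rfl⟩
      exact ⟨_, (normalCore_normal _).conj_mem a ha ⟨z, h.zH⟩, rfl⟩
    · exact h.fpf ha.2 (comm_zp (Commute.refl x) (m ha.1))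

theorem K4.core5 (h : K4 H z s x) (hn : ¬ H ≤ N[VV z s]) {N : Subgroup G} (hN : N ≤ H ⊓ N[VV z s])
    (n : H ≤ N[N]) : N = ⊥ := by
  obtain ⟨g, hg, a⟩ := SetLike.not_le_iff_exists.1 hn
  refine h.core hN (n h.zH) (eq_bot_iff.2 fun v hv => ?_)
  by_contra v1
  have b := hN (conj_mem_of_mem_norm (n hg) hv.1)
  exact a (h.fix hg hv.2 v1 (h.invN b.1 b.2 (conj_mul_self _ (h.sq hv.2))))

theorem K4.exj (h : K4 H z s x) (hn : ¬ H ≤ N[VV z s]) : ∃ j ∈ H, j ∉ N[VV z s] ∧ j * x * j⁻¹ = x⁻¹ := by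
  obtain ⟨g, hg, a⟩ := SetLike.not_le_iff_exists.1 hn
  obtain ⟨u, hu, v, hv, e⟩ := h.inverts hg a
  exact ⟨_, mul_mem (mul_mem (h.le hu) hg) (h.le hv), fun o => a (by
    simpa [mul_assoc] using mul_mem (mul_mem (inv_mem (le_normalizer hu)) o) (inv_mem (le_normalizer hv))), e⟩

theorem K4.alt5 (h : K4 H z s x) (hn : ¬ H ≤ N[VV z s]) : Nonempty (H ≃* alternatingGroup (Fin 5)) := by
  obtain ⟨j, hj, n, jx⟩ := h.exj hn
  let B := (H ⊓ N[VV z s]).subgroupOf H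
  let F : Option (VV z s) → H ⧸ B := fun o => o.elim ((1 : H) : H ⧸ B)
    fun u => ((⟨u * j, mul_mem (h.le u.2) hj⟩ : H) : H ⧸ B)
  have k : ∀ u ∈ VV z s, u * j ∉ N[VV z s] := fun u hu o =>
    n (by simpa using mul_mem (inv_mem (le_normalizer hu)) o)
  have bij : Function.Bijective F := by
    refine ⟨?_, fun q => ?_⟩
    · rintro (_ | a) (_ | b) e
      · rfl
      · exact absurd (by simpa using (QuotientGroup.eq.1 e).2) (k b b.2)
      · exact absurd (by simpa using (QuotientGroup.eq.1 e.symm).2) (k a a.2)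
      · have c : j⁻¹ * ((a : G)⁻¹ * b) * j⁻¹⁻¹ ∈ H ⊓ N[VV z s] := by
          have := mem_subgroupOf.1 (QuotientGroup.eq.1 e)
          simpa [mul_assoc] using this
        have d := mul_mem (inv_mem a.2) b.2
        by_contra o
        refine n (inv_mem_iff.1 (h.fix (inv_mem hj) d (fun e => o ?_) (h.invN c.1 c.2 (conj_mul_self _ (h.sq d)))))
        rw [Subtype.ext (inv_mul_eq_one.1 e)]
    · obtain ⟨g, rfl⟩ := QuotientGroup.mk_surjective q
      by_cases o : (g : G) ∈ N[VV z s]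
      · exact ⟨none, QuotientGroup.eq.2 (by simpa [B, mem_subgroupOf] using o)⟩
      · obtain ⟨u, hu, b, hb, e⟩ := h.dc hj jx g.2 o
        exact ⟨some ⟨u, hu⟩, QuotientGroup.eq.2 (by simpa [B, mem_subgroupOf, e, mul_assoc] using hb.2)⟩
  have i : B.index = 5 := by
    rw [index, ← Nat.card_eq_of_bijective F bij, Finite.card_option, h.card]
  refine alt_of_index (B := B) (by norm_num) i ?_ ?_
  · refine (map_eq_bot_iff_of_injective _ H.subtype_injective).1 (h.core5 hn ?_ fun g hg => mem_normalizer_of_conj ?_)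
    · rintro _ ⟨a, ha, rfl⟩; exact normalCore_le B ha
    · rintro _ ⟨a, ha, rfl⟩
      exact ⟨_, (normalCore_normal _).conj_mem a ha ⟨g, hg⟩, rfl⟩
  · have := card_mul_relIndex (inf_le_left : H ⊓ N[VV z s] ≤ H)
    rw [h.cardB, show (H ⊓ N[VV z s]).relIndex H = 5 from i] at this
    rw [← this]; rfl

theorem K4.cent (h : K4 H z s x) (hn : ¬ H ≤ N[VV z s]) (n : g ∈ N[H]) (a : Commute g z) (c : Commute g x) :
    ∀ k ∈ H, Commute g k := by
  obtain ⟨j, hj, -, jx⟩ := h.exj hn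
  have gs : Commute g s := h.xz ▸ (c.mul_right a).mul_right c.inv_right
  have gV : ∀ v ∈ VV z s, Commute g v := fun v hv => by
    rcases h.mem.1 hv with rfl | rfl | rfl | rfl
    exacts [Commute.one_right _, a, gs, gs.mul_right a]
  have gB : ∀ b ∈ H ⊓ N[VV z s], Commute g b := fun b hb => by
    obtain ⟨d, hd, v, hv, rfl⟩ := h.dec hb.1 (conj_mem_of_mem_norm hb.2 (zVV z s))
    refine Commute.mul_right ?_ (gV v hv)
    rcases hd with rfl | rfl | rfl
    exacts [Commute.one_right _, c, c.mul_right c]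
  have m : ∀ k ∈ H, k⁻¹ * (g * k * g⁻¹) ∈ H := fun k hk => mul_mem (inv_mem hk) (conj_mem_of_mem_norm n hk)
  have jB : j⁻¹ * (g * j * g⁻¹) ∈ N[VV z s] := h.bN (h.cx (m j hj) (commute_iff_conj.2 (by
    rw [show j⁻¹ * (g * j * g⁻¹) * x * (j⁻¹ * (g * j * g⁻¹))⁻¹ = j⁻¹ * (g * (j * (g⁻¹ * x * g⁻¹⁻¹) * j⁻¹) * g⁻¹) * j by
      group, commute_iff_conj.1 c.inv_left, jx, commute_iff_conj.1 c.inv_right, ← jx]; group)))
  have kB : ∀ k ∈ H, k⁻¹ * (g * k * g⁻¹) ∈ N[VV z s] := fun k hk => by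
    by_cases o : k ∈ N[VV z s]
    · rw [commute_iff_conj.1 (gB k ⟨hk, o⟩), inv_mul_cancel]; exact one_mem _
    · obtain ⟨u, hu, b, hb, rfl⟩ := h.dc hj jx hk o
      rw [← conj_mul, ← conj_mul, commute_iff_conj.1 (gV u hu), commute_iff_conj.1 (gB b hb),
        show (u * j * b)⁻¹ * (u * (g * j * g⁻¹) * b) = b⁻¹ * (j⁻¹ * (g * j * g⁻¹)) * b by group]
      exact mul_mem (mul_mem (inv_mem hb.2) jB) hb.2
  let N : Subgroup G := closure {y | ∃ k ∈ H, y = k⁻¹ * (g * k * g⁻¹)}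
  have N0 : N = ⊥ := h.core5 hn ((closure_le _).2 (by rintro _ ⟨k, hk, rfl⟩; exact ⟨m k hk, kB k hk⟩))
    fun d hd => mem_normalizer_of_conj fun y hy => by
      have : N ≤ N.comap (MulAut.conj d).toMonoidHom := (closure_le _).2 (by
        rintro _ ⟨k, hk, rfl⟩
        have e : d * (k⁻¹ * (g * k * g⁻¹)) * d⁻¹ =
            (k * d⁻¹)⁻¹ * (g * (k * d⁻¹) * g⁻¹) * (d⁻¹⁻¹ * (g * d⁻¹ * g⁻¹))⁻¹ := by group
        show d * _ * d⁻¹ ∈ N
        rw [e]
        exact mul_mem (subset_closure ⟨_, mul_mem hk (inv_mem hd), rfl⟩)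
          (inv_mem (subset_closure ⟨_, inv_mem hd, rfl⟩)))
      exact this hy
  intro k hk
  have : k⁻¹ * (g * k * g⁻¹) ∈ (⊥ : Subgroup G) := N0 ▸ subset_closure ⟨k, hk, rfl⟩
  exact commute_iff_conj.2 (inv_mul_eq_one.1 (mem_bot.1 this)).symm

end Cfsg.Agent.J8
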