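import Cfsg.Agent.J8.A
import Mathlib.GroupTheory.SpecificGroups.KleinFour

/-! # The centralizer of the second involution in a group of Hall-Janko type -/

set_option autoImplicit false

namespace Cfsg.Agent.J8

open Cfsg Cfsg.Agent.GT Cfsg.Agent.TT Cfsg.Agent.XL Cfsg.Agent.M24 Subgroup
open scoped commutatorElement

variable {G : Type*} [Group G] {z s t u x y g a : G}

theorem prod_equiv {A B M : Subgroup G} (hc : ∀ a ∈ A, ∀ b ∈ B, Commute a b) (hi : A ⊓ B = ⊥) (hs : A ⊔ B = M) :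
    Nonempty (M ≃* A × B) := by
  let φ : A × B →* G := A.subtype.noncommCoprod B.subtype fun a b => hc a a.2 b b.2
  have inj : Function.Injective φ := (injective_iff_map_eq_one φ).2 fun p e => by
    have e' : (p.1 : G) * p.2 = 1 := e
    have a : (p.1 : G) ∈ A ⊓ B := mem_inf.2 ⟨p.1.2, eq_inv_of_mul_eq_one_left e' ▸ inv_mem p.2.2⟩
    rw [hi, mem_bot] at a
    rw [a, one_mul] at e'
    exact Prod.ext (Subtype.ext a) (Subtype.ext e')
  have r : φ.range = M := (MonoidHom.noncommCoprod_range ..).trans (by rw [range_subtype, range_subtype, hs])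
  exact ⟨((MonoidHom.ofInjective inj).trans (MulEquiv.subgroupCongr r)).symm⟩

theorem K3.four (h : K3 z s x) : Nonempty (VV z s ≃* Multiplicative (ZMod 2) × Multiplicative (ZMod 2)) := by
  haveI : Nontrivial (VV z s) := ⟨⟨⟨z, zVV z s⟩, 1, fun e => h.z1 (congrArg Subtype.val e)⟩⟩
  haveI : IsKleinFour (VV z s) := ⟨h.card, (Monoid.exponent_eq_prime_iff (G := VV z s) Nat.prime_two).2 fun g g1 =>
      orderOf_eq_prime (Subtype.ext (by simpa [_root_.sq] using h.sq g.2)) g1⟩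
  haveI : IsKleinFour (Multiplicative (ZMod 2) × Multiplicative (ZMod 2)) :=
    ⟨by simp, by simp [Monoid.exponent_prod]⟩
  exact IsKleinFour.nonempty_mulEquiv

/-- the local data -/
structure LD (z s t u x y : G) : Prop where
  k : K3 z s x
  k' : K3 t u y
  zt : Commute z t
  xt : Commute x t
  xu : Commute x u
  yz : Commute y z
  xy : Commute x y
  cz : ∀ g, Commute g z → Commute g t → g ∈ VV z s ⊔ VV t u
  cls : ∀ a ∈ VV z s ⊔ VV t u, a ∈ VV z s ∨ ∃ n ∈ N[VV z s ⊔ VV t u], a = n * t * n⁻¹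
  nc : ¬ IsConj z t
  far : ∃ w c, IsConj z w ∧ Commute w s ∧ ¬ Commute w z ∧ Commute c z ∧ s * (c * s * c⁻¹) * (s * (c * s * c⁻¹)) = z

theorem K3.cV (h : K3 z s x) (a : Commute g z) (b : Commute g s) {v : G} (hv : v ∈ VV z s) : Commute g v := by
  rcases h.mem.1 hv with rfl | rfl | rfl | rfl
  exacts [Commute.one_right _, a, b, b.mul_right a]

theorem K3.cV' (h : K3 z s x) (a : Commute g z) (c : Commute g x) {v : G} (hv : v ∈ VV z s) : Commute g v :=
  h.cV a (h.xz ▸ (c.mul_right a).mul_right c.inv_right) hv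

theorem K3.conj (h : K3 z s x) {v : G} (hv : v ∈ VV z s) (v1 : v ≠ 1) : IsConj z v :=
  let ⟨b, _, e⟩ := h.cj hv v1; isConj_iff.2 ⟨b, e⟩

theorem LD.VU (h : LD z s t u x y) {v w : G} (hv : v ∈ VV z s) (hw : w ∈ VV t u) : Commute v w :=
  h.k'.cV' (h.k.cV' h.zt.symm h.xt.symm hv).symm (h.k.cV' h.yz h.xy.symm hv).symm hw

theorem LD.xU (h : LD z s t u x y) {w : G} (hw : w ∈ VV t u) : Commute x w := h.k'.cV h.xt h.xu hw

theorem LD.yV (h : LD z s t u x y) {v : G} (hv : v ∈ VV z s) : Commute y v := h.k.cV' h.yz h.xy.symm hv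

theorem LD.disj (h : LD z s t u x y) (hv : a ∈ VV z s) (hw : a ∈ VV t u) : a = 1 := by
  by_contra a1
  exact h.nc ((h.k.conj hv a1).trans (h.k'.conj hw a1).symm)

theorem LD.mem (h : LD z s t u x y) : a ∈ VV z s ⊔ VV t u ↔ ∃ v ∈ VV z s, ∃ w ∈ VV t u, a = v * w :=
  mem_sup_of_le_norm fun v hv => cent_le_norm _ fun _ hw => (h.VU hv hw).eq.symm

theorem LD.comm (h : LD z s t u x y) {b : G} (ha : a ∈ VV z s ⊔ VV t u) (hb : b ∈ VV z s ⊔ VV t u) :
    Commute a b := by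
  obtain ⟨v, hv, w, hw, rfl⟩ := h.mem.1 ha
  obtain ⟨v', hv', w', hw', rfl⟩ := h.mem.1 hb
  exact ((h.k.comm hv hv').mul_right (h.VU hv hw')).mul_left ((h.VU hv' hw).symm.mul_right (h.k'.comm hw hw'))

theorem LD.sq (h : LD z s t u x y) (ha : a ∈ VV z s ⊔ VV t u) : a * a = 1 := by
  obtain ⟨v, hv, w, hw, rfl⟩ := h.mem.1 ha
  exact mul_self_of_commute (h.k.sq hv) (h.k'.sq hw) (h.VU hv hw)

theorem LD.le (h : LD z s t u x y) : VV z s ⊔ VV t u ≤ C1[t] := fun _ ha =>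
  mem_cent1.2 (h.comm ha (mem_sup_right (zVV t u)))

theorem LD.pg (h : LD z s t u x y) : IsPGroup 2 (VV z s ⊔ VV t u : Subgroup G) :=
  isPGroup_of_forall fun _ hx => ⟨1, by rw [pow_one, _root_.sq]; exact h.sq hx⟩

theorem LD.zV (h : LD z s t u x y) (ha : a ∈ VV z s ⊔ VV t u) (c : IsConj z a) : a ∈ VV z s :=
  (h.cls a ha).resolve_right fun ⟨n, _, e⟩ => h.nc (c.trans (isConj_iff.2 ⟨n, e.symm⟩).symm)

theorem LD.dec (h : LD z s t u x y) (hg : g ∈ C1[t]) (e : g * z * g⁻¹ ∈ VV z s ⊔ VV t u) :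
    ∃ b, (b = 1 ∨ b = x ∨ b = x * x) ∧ ∃ a ∈ VV z s ⊔ VV t u, g = b * a := by
  obtain ⟨b, hb, c⟩ := h.k.cj (h.zV e (isConj_iff.2 ⟨g, rfl⟩)) fun o => h.k.z1 (conj_eq_one_iff.1 o)
  have bt : Commute b t := by
    rcases hb with rfl | rfl | rfl
    exacts [Commute.one_left _, h.xt, h.xt.mul_left h.xt]
  refine ⟨b, hb, b⁻¹ * g, h.cz _ (commute_iff_conj.2 ?_) (bt.inv_left.mul_left (mem_cent1.1 hg)), by group⟩
  rw [show b⁻¹ * g * z * (b⁻¹ * g)⁻¹ = b⁻¹ * (g * z * g⁻¹) * b by group, ← c]; group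

variable [Finite G]

theorem LD.bA (h : LD z s t u x y) {b : G} (hb : b = 1 ∨ b = x ∨ b = x * x) (ha : a ∈ VV z s ⊔ VV t u) :
    a * b * a⁻¹ * b⁻¹ ∈ VV z s := by
  obtain ⟨v, hv, w, hw, rfl⟩ := h.mem.1 ha
  have c : Commute w b := by
    rcases hb with rfl | rfl | rfl
    exacts [Commute.one_right _, (h.xU hw).symm, (h.xU hw).symm.mul_right (h.xU hw).symm]
  rw [show v * w * b * (v * w)⁻¹ * b⁻¹ = v * ((w * b * w⁻¹) * v⁻¹ * b⁻¹) by group, commute_iff_conj.1 c]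
  exact mul_mem hv (conj_mem_of_mem_norm (h.k.bN hb) (inv_mem hv))

theorem LD.bN (h : LD z s t u x y) {b : G} (hb : b = 1 ∨ b = x ∨ b = x * x) : b ∈ N[VV z s ⊔ VV t u] :=
  mem_normalizer_of_conj fun a ha => by
    have := mul_mem (inv_mem (mem_sup_left (h.bA hb ha))) ha
    simpa [mul_assoc] using this

theorem LD.syl (h : LD z s t u x y) : IsPiHallOf {2} (VV z s ⊔ VV t u) C1[t] := by
  refine syl_of_syl_norm Nat.prime_two (syl_of_maximal Nat.prime_two h.pg (le_inf h.le le_normalizer)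
    fun Q hQ h1 h2 => le_antisymm (fun g hg => ?_) h1)
  obtain ⟨b, hb, a, ha, rfl⟩ := h.dec (h2 hg).1 (conj_mem_of_mem_norm (h2 hg).2 (mem_sup_left (zVV z s)))
  have bQ : b ∈ Q := by simpa using mul_mem hg (inv_mem (h1 ha))
  obtain ⟨k, e⟩ := exists_pow_eq_one_of_isPGroup hQ bQ
  have b3 : b ^ 3 = 1 := by
    have : x ^ 3 = 1 := by rw [← h.k.x3, pow_three]
    rcases hb with rfl | rfl | rfl
    exacts [one_pow _, this, by rw [← _root_.sq, ← pow_mul, mul_comm, pow_mul, this, one_pow]]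
  have := pow_gcd_eq_one.2 ⟨e, b3⟩
  rw [Nat.Coprime.gcd_eq_one (Nat.Coprime.pow_left k (by norm_num)), pow_one] at this
  simpa [this] using ha

theorem LD.foc (h : LD z s t u x y) : (VV z s ⊔ VV t u) ⊓ ⁅C1[t], C1[t]⁆ ≤ VV z s := by
  rw [comm_syl_inf_der1 Nat.prime_two h.syl ⟨⟨fun a b => Subtype.ext (h.comm a.2 b.2).eq⟩⟩]
  refine commutator_le.2 fun a ha g hg => ?_
  obtain ⟨b, hb, c, hc, rfl⟩ := h.dec hg.1 (conj_mem_of_mem_norm hg.2 (mem_sup_left (zVV z s)))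
  rw [commutatorElement_def, show a * (b * c) * a⁻¹ * (b * c)⁻¹ = a * b * (c * a⁻¹ * c⁻¹) * b⁻¹ by group,
    commute_iff_conj.1 (h.comm hc (inv_mem ha))]
  exact h.bA hb ha

/-- the component -/
def LL (t x : G) : Subgroup G := ⁅C1[t], C1[t]⁆ ⊔ zpowers x

omit [Finite G] in
theorem LD.xK (h : LD z s t u x y) : x ∈ C1[t] := mem_cent1.2 h.xt

omit [Finite G] in
theorem LD.LK (h : LD z s t u x y) : LL t x ≤ C1[t] := sup_le (der1_le _) (zpowers_le.2 h.xK)

omit [Finite G] in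
theorem LD.VD (h : LD z s t u x y) : VV z s ≤ ⁅C1[t], C1[t]⁆ := by
  have a := commutator_mem_commutator h.xK (h.le (mem_sup_left (zVV z s)))
  have b := commutator_mem_commutator h.xK (h.le (mem_sup_left (sVV z s)))
  rw [commutatorElement_def, h.k.xz, inv_of_sq h.k.zz] at a
  rw [commutatorElement_def, h.k.xs, mul_assoc, h.k.zs.inv_right.eq, mul_inv_cancel_left] at b
  refine (closure_le _).2 ?_
  rintro _ (rfl | rfl)
  exacts [b, (mul_mem_cancel_right b).1 a]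

theorem LD.nL (h : LD z s t u x y) : C1[t] ≤ N[LL t x] := fun g hg => mem_normalizer_of_conj fun a ha => by
  have : ⁅g, a⁆ * a ∈ LL t x := mul_mem (mem_sup_left (commutator_mem_commutator hg (h.LK ha))) ha
  simpa [commutatorElement_def] using this

theorem LD.AL (h : LD z s t u x y) (ha : a ∈ VV z s ⊔ VV t u) (hl : a ∈ LL t x) : a ∈ VV z s := by
  refine h.foc ⟨ha, ?_⟩
  have n := self_le_norm_der1 C1[t]
  obtain ⟨d, hd, b, hb, e⟩ := (mem_sup_of_le_norm' ((zpowers_le.2 h.xK).trans n)).1 hl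
  have b3 : b * (b * b) = 1 := by
    obtain ⟨k, rfl⟩ := hb
    rw [← pow_three, ← zpow_natCast, ← zpow_mul, mul_comm, zpow_mul, zpow_natCast, pow_three, h.k.x3, one_zpow]
  have bn := n (zpowers_le.2 h.xK hb)
  have : a = d * (b * d * b⁻¹) * (b * (b * d * b⁻¹) * b⁻¹) := by
    calc a = a * (a * a) := by rw [h.sq ha, mul_one]
      _ = d * (b * d * b⁻¹) * (b * (b * d * b⁻¹) * b⁻¹) * (b * (b * b)) := by rw [e]; group
      _ = _ := by rw [b3, mul_one]
  rw [this]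
  exact mul_mem (mul_mem hd (conj_mem_of_mem_norm bn hd)) (conj_mem_of_mem_norm bn (conj_mem_of_mem_norm bn hd))

theorem LD.k4 (h : LD z s t u x y) : K4 (LL t x) z s x :=
  ⟨h.k, mem_sup_left (h.VD (zVV z s)), mem_sup_right (mem_zpowers x),
    fun g hg c => h.AL (h.cz g c (mem_cent1.1 (h.LK hg))) hg⟩

theorem LD.sup (h : LD z s t u x y) : VV t u ⊔ LL t x = C1[t] := by
  refine le_antisymm (sup_le (le_sup_right.trans h.le) h.LK) fun g hg => ?_
  have s1 := syl_inf_normal Nat.prime_two h.syl (der1_le C1[t]) (self_le_norm_der1 _)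
  rw [le_antisymm h.foc (le_inf le_sup_left h.VD)] at s1
  obtain ⟨d, hd, n, hn, rfl⟩ := frattini_arg_exists Nat.prime_two s1 (self_le_norm_der1 _ hg)
  obtain ⟨b, hb, a, ha, rfl⟩ := h.dec ((mul_mem_cancel_left (der1_le _ hd)).1 hg)
    (mem_sup_left (conj_mem_of_mem_norm hn (zVV z s)))
  exact mul_mem (mem_sup_right (mem_sup_left hd)) (mul_mem (mem_sup_right (h.k4.bH hb))
    (sup_le (h.k4.le.trans le_sup_right) le_sup_left ha))

theorem LD.nle (h : LD z s t u x y) : ¬ LL t x ≤ N[VV z s] := fun hn => by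
  have k0 : ∀ g ∈ C1[t], g * g = 1 → g ∈ VV z s ⊔ VV t u := fun g hg gg => by
    have gn : g ∈ N[VV z s] := (sup_le (fun w hw => cent_le_norm _ fun _ hv => (h.VU hv hw).eq) hn) (h.sup.ge hg)
    obtain ⟨b, hb, a, ha, rfl⟩ := h.dec hg (mem_sup_left (conj_mem_of_mem_norm gn (zVV z s)))
    have e : b * b * (b⁻¹ * a * b⁻¹⁻¹ * a) = 1 := by rw [← gg]; group
    have c : b * b ∈ VV z s := h.AL (by
      rw [eq_inv_of_mul_eq_one_left e]
      exact inv_mem (mul_mem (conj_mem_of_mem_norm (inv_mem (h.bN hb)) ha) ha)) (mul_mem (h.k4.bH hb) (h.k4.bH hb))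
    rcases hb with rfl | rfl | rfl
    · simpa using ha
    · exact absurd (h.k.fpf c ((Commute.refl _).mul_right (Commute.refl _))) h.k.xx1
    · rw [mul_assoc, ← mul_assoc x x (x), ← mul_assoc, ← mul_assoc, mul_assoc x x x, h.k.x3, one_mul] at c
      exact absurd (by rw [h.k.fpf c (Commute.refl _), one_mul]) h.k.xx1
  obtain ⟨w, c, w1, w2, w3, c1, c2⟩ := h.far
  have cw : IsConj z (c * w * c⁻¹) := w1.trans (isConj_iff.2 ⟨c, rfl⟩)
  have ww : c * w * c⁻¹ * (c * w * c⁻¹) = 1 := by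
    obtain ⟨d, e⟩ := isConj_iff.1 cw
    exact e ▸ conj_mul_self d h.k.zz
  have nz : ¬ Commute (c * w * c⁻¹) z := fun o => w3 ((commute_conj_iff c).1 (by rwa [commute_iff_conj.1 c1]))
  have k1 : ∃ v ∈ VV z s, v ≠ 1 ∧ Commute (c * w * c⁻¹) v := by
    rcases Nat.even_or_odd (orderOf (t * (c * w * c⁻¹))) with o | o
    · obtain ⟨j, -, a1, a2, a3, a4⟩ := exists_central_of_even h.k'.zz ww o
      rcases h.cls _ (k0 _ (mem_cent1.2 a3.symm) a2) with e | ⟨n, hn', e⟩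
      · exact ⟨_, e, a1, a4⟩
      · have := conj_mem_of_mem_norm hn' (k0 (n⁻¹ * (c * w * c⁻¹) * n⁻¹⁻¹) (mem_cent1.2 (by
          rw [e] at a4
          simpa [mul_assoc] using ((commute_conj_iff n⁻¹).2 a4).eq)) (conj_mul_self _ ww))
        exact absurd (h.comm (by simpa [mul_assoc] using this) (mem_sup_left (zVV z s))) nz
    · obtain ⟨j, e⟩ := conj_of_odd h.k'.zz ww o (pow_orderOf_eq_one _)
      exact absurd (cw.trans (isConj_iff.2 ⟨_, by rw [inv_inv]; exact e⟩)) h.nc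
  obtain ⟨v, hv, v1, e⟩ := k1
  have b := (commute_conj_iff c).2 w2
  rcases h.k.mem.1 hv with rfl | rfl | rfl | rfl
  · exact v1 rfl
  · exact nz e
  · exact nz (c2 ▸ (e.mul_right b).mul_right (e.mul_right b))
  · have zc : Commute z (c * s * c⁻¹) := (c1.symm.mul_right h.k.zs).mul_right c1.symm.inv_right
    refine nz (?_ : Commute _ z)
    rw [← c2, show s * (c * s * c⁻¹) * (s * (c * s * c⁻¹)) = s * z * (c * s * c⁻¹) * (s * z * (c * s * c⁻¹)) by
      generalize c * s * c⁻¹ = d at zc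
      rw [mul_assoc s z, zc.eq, ← mul_assoc s d, (h.k.zs.mul_right zc).mul_mul_mul_comm, h.k.zz, mul_one]]
    exact (e.mul_right b).mul_right (e.mul_right b)

theorem LD.UL (h : LD z s t u x y) {w l : G} (hw : w ∈ VV t u) (hl : l ∈ LL t x) : Commute w l :=
  h.k4.cent h.nle (h.nL (h.le (mem_sup_right hw))) (h.VU (zVV z s) hw).symm (h.xU hw).symm l hl

theorem LD.inf (h : LD z s t u x y) : VV t u ⊓ LL t x = ⊥ :=
  eq_bot_iff.2 fun _ ha => h.disj (h.AL (mem_sup_right ha.1) ha.2) ha.1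

theorem LD.cU (h : LD z s t u x y) (hg : g ∈ C1[t]) {w : G} (hw : w ∈ VV t u) : Commute g w :=
  mem_cent1.1 ((h.sup.ge.trans (sup_le (fun _ a => mem_cent1.2 (h.k'.comm a hw))
    fun _ a => mem_cent1.2 (h.UL hw a).symm)) hg)

theorem LD.Op (h : LD z s t u x y) : Op 2 C1[t] = VV t u := by
  refine le_antisymm (fun a ha => ?_) (le_Op (le_sup_right.trans h.le)
    (fun g hg => cent_le_norm _ fun _ hw => (h.cU hg hw).eq.symm) (VV_pgroup h.k'.zz h.k'.ss h.k'.zs))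
  have uo : VV t u ≤ TT.Op 2 C1[t] := le_Op (le_sup_right.trans h.le)
    (fun g hg => cent_le_norm _ fun _ hw => (h.cU hg hw).eq.symm) (VV_pgroup h.k'.zz h.k'.ss h.k'.zs)
  have l := le_syl_of_norm Nat.prime_two h.syl (Op_isPGroup C1[t]) (Op_le _) (h.le.trans (le_norm_Op _))
  obtain ⟨v, hv, w, hw, rfl⟩ := h.mem.1 (l ha)
  have := h.k4.core5 h.nle (N := TT.Op 2 C1[t] ⊓ LL t x)
    (fun a b => ⟨b.2, le_normalizer (h.AL (l b.1) b.2)⟩)
    (le_norm_inf (h.LK.trans (le_norm_Op _)) le_normalizer)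
  have e : v ∈ (⊥ : Subgroup G) := this ▸ ⟨(mul_mem_cancel_right (uo hw)).1 ha, h.k4.le hv⟩
  rwa [mem_bot.1 e, one_mul]

theorem LD.yL (h : LD z s t u x y) {l : G} (hl : l ∈ LL t x) : Commute y l := by
  have n : y ∈ N[C1[t]] := mem_normalizer_of_conj fun g hg => mem_cent1.2 (by
    have := (commute_conj_iff y).2 (h.cU hg h.k'.szV)
    rwa [h.k'.xsz] at this)
  refine h.k4.cent h.nle (mem_normalizer_of_conj fun a ha => ?_) h.yz h.xy.symm l hl
  have : LL t x ≤ (LL t x).comap (MulAut.conj y).toMonoidHom := by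
    refine sup_le (commutator_le.2 fun a ha b hb => mem_sup_left ?_) (zpowers_le.2 (mem_sup_right ?_))
    · rw [map_commutatorElement]
      exact commutator_mem_commutator (conj_mem_of_mem_norm n ha) (conj_mem_of_mem_norm n hb)
    · show y * x * y⁻¹ ∈ _
      rw [commute_iff_conj.1 h.xy.symm]; exact mem_zpowers _
  exact this ha

theorem LD.main (h : LD z s t u x y) :
    Nonempty (C1[t] ≃* (Multiplicative (ZMod 2) × Multiplicative (ZMod 2)) × alternatingGroup (Fin 5)) ∧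
      Nonempty (N[TT.Op 2 C1[t]] ≃* alternatingGroup (Fin 4) × alternatingGroup (Fin 5)) := by
  obtain ⟨e5⟩ := h.k4.alt5 h.nle
  obtain ⟨e2⟩ := h.k'.four
  obtain ⟨p⟩ := prod_equiv (fun _ a _ b => h.UL a b) h.inf h.sup
  refine ⟨⟨p.trans (e2.prodCongr e5)⟩, ?_⟩
  let W := VV t u ⊔ zpowers y
  have wn : W ≤ N[VV t u] := sup_le le_normalizer (zpowers_le.2 h.k'.xn)
  have wz : ∀ g ∈ W, Commute g z := fun g hg => mem_cent1.1 (sup_le (fun _ a => mem_cent1.2
    (h.VU (zVV z s) a).symm) (zpowers_le.2 (mem_cent1.2 h.yz)) hg)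
  have wx : ∀ g ∈ W, Commute g x := fun g hg => mem_cent1.1 (sup_le (fun _ a => mem_cent1.2
    (h.xU a).symm) (zpowers_le.2 (mem_cent1.2 h.xy.symm)) hg)
  have k : K4 W t u y := ⟨h.k', mem_sup_left (zVV t u), mem_sup_right (mem_zpowers y), fun g hg c => by
    obtain ⟨v, hv, w, hw, rfl⟩ := h.mem.1 (h.cz g (wz g hg) c)
    rwa [h.k.fpf hv (wx v ((mul_mem_cancel_right (mem_sup_left hw)).1 hg)).symm, one_mul]⟩
  obtain ⟨e4⟩ := k.alt4 wn
  have wl : ∀ a ∈ W, ∀ b ∈ LL t x, Commute a b := fun a ha b hb => mem_cent1.1 (sup_le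
    (fun _ c => mem_cent1.2 (h.UL c hb)) (zpowers_le.2 (mem_cent1.2 (h.yL hb))) ha)
  obtain ⟨q⟩ := prod_equiv (M := N[VV t u]) wl (eq_bot_iff.2 fun a ha => h.disj
    (h.k4.cz a ha.2 (wz a ha.1)) (k.cz a ha.1 (mem_cent1.1 (h.LK ha.2)))) (le_antisymm (sup_le wn
      fun g hg => cent_le_norm _ fun _ hw => (h.UL hw hg).eq) fun g hg => by
    obtain ⟨b, hb, c⟩ := h.k'.cj (conj_mem_of_mem_norm hg (zVV t u)) fun o => h.k'.z1 (conj_eq_one_iff.1 o)
    have : b⁻¹ * g ∈ C1[t] := mem_cent1.2 (commute_iff_conj.2 (by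
      rw [show b⁻¹ * g * t * (b⁻¹ * g)⁻¹ = b⁻¹ * (g * t * g⁻¹) * b by group, ← c]; group)).eq
    exact (mul_mem_cancel_left (inv_mem (mem_sup_left (k.bH hb)))).1
      ((h.sup.ge.trans (sup_le_sup_right le_sup_left _)) this))
  rw [h.Op]
  exact ⟨q.trans (e4.prodCongr e5)⟩

end Cfsg.Agent.J8
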