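import Cfsg.Agent.J8.B

/-! # The braid relation in a group of Hall-Janko type -/

set_option autoImplicit false

namespace Cfsg.Agent.J8

open Cfsg Cfsg.Agent.GT Cfsg.Agent.TT Cfsg.Agent.XL Cfsg.Agent.M24 Subgroup

variable {G : Type*} [Group G] {H : Subgroup G} {z s t u x y g a j r : G}

theorem sym4 (zz : z * z = 1) (rr : r * r = 1) (jj : j * j = 1) (zr : Commute z r) (zj : z * j * z = j * z * j)
    (rj : r * j * r = j * r * j) : Commute (j * (r * z) * j) (r * z) ∧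
      (j * (r * z) * j = 1 ∨ j * (r * z) * j = r * z ∨ j * (r * z) * j = z ∨ j * (r * z) * j = r → r = z) := by
  have e : j * (r * z) * j = r * (j * (r * z) * j) * z := by
    calc _ = j * r * j * (j * z * j) := by rw [show j * r * j * (j * z * j) = j * r * (j * j) * z * j by group, jj]; group
      _ = _ := by rw [← rj, ← zj]; group
  have e' : j * (r * z) * j = z * (j * (r * z) * j) * r := by
    calc _ = j * z * j * (j * r * j) := by
          rw [show j * z * j * (j * r * j) = j * z * (j * j) * r * j by group, jj, ← zr.eq]; group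
      _ = _ := by rw [← rj, ← zj, ← zr.eq]; group
  have k : r * z = 1 → r = z := fun o => (eq_inv_of_mul_eq_one_left o).trans (inv_of_sq zz)
  generalize hw : j * (r * z) * j = w at e e'
  refine ⟨?_, ?_⟩
  · calc w * (r * z) = r * w * (z * r * z) := by nth_rw 1 [e]; group
      _ = r * (z * z) * w * r := by rw [zr.eq, mul_assoc r z, zz]; group
      _ = r * z * w := by nth_rw 2 [e']; group
  · rintro (o | o | o | o) <;> rw [o] at e
    · exact k (by simpa using e.symm)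
    · exact k (by rw [e, ← mul_assoc, rr, one_mul, zz])
    · rw [e, mul_assoc, zz, mul_one]
    · rw [e, rr, one_mul]

variable [Finite G]

theorem K4.surj (h : K4 H z s x) (ha : a ∈ H) (aa : a * a = 1) (a1 : a ≠ 1) : ∃ l ∈ H, a = l * z * l⁻¹ := by
  by_cases o : a ∈ VV z s
  · obtain ⟨b, hb, e⟩ := h.cj o a1
    exact ⟨b, h.bH hb, e.symm⟩
  rcases Nat.even_or_odd (orderOf (z * a)) with p | p
  · obtain ⟨k, -, a1, -, a3, a4⟩ := exists_central_of_even h.zz aa p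
    exact absurd (h.cv ha (h.cz _ (pow_mem (mul_mem h.zH ha) k) a3.symm) a1 a4) o
  · obtain ⟨k, e⟩ := conj_of_odd h.zz aa p (pow_orderOf_eq_one _)
    refine ⟨_, pow_mem (mul_mem h.zH ha) k, ?_⟩
    generalize (z * a) ^ k = d at e
    rw [← e]; group

theorem K4.exj3 (h : K4 H z s x) (hn : ¬ H ≤ N[VV z s]) :
    ∃ j ∈ H, j ∉ N[VV z s] ∧ j * x * j⁻¹ = x⁻¹ ∧ j * j = 1 ∧ z * j * z = j * z * j := by
  obtain ⟨j, hj, n, jx⟩ := h.exj hn
  have x2 : x⁻¹ ≠ x := fun e => h.xx1 (by nth_rw 1 [← e]; exact inv_mul_cancel x)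
  have jx' : j * x⁻¹ * j⁻¹ = x := by rw [← conj_inv, jx, inv_inv]
  have jj : j * j = 1 := by
    rcases h.cx (mul_mem hj hj) (commute_iff_conj.2 (by
      rw [show j * j * x * (j * j)⁻¹ = j * (j * x * j⁻¹) * j⁻¹ by group, jx, jx'])) with e | e | e
    · exact e
    · exact absurd (by rw [← jx, ← e]; group) x2
    · exact absurd (by
        nth_rw 2 [← jx']
        rw [h.xinv, ← e, mul_assoc, mul_assoc, mul_inv_cancel, mul_one]) x2
  have i := inv_of_sq jj
  obtain ⟨u, hu, b, hb, e⟩ := h.dc hj jx (mul_mem (mul_mem hj h.zH) (inv_mem hj))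
    fun o => n (h.fix hj (zVV z s) h.z1 (h.invN (mul_mem (mul_mem hj h.zH) (inv_mem hj)) o (conj_mul_self _ h.zz)))
  obtain ⟨b, hb', w, hw, rfl⟩ := h.dec hb.1 (conj_mem_of_mem_norm hb.2 (zVV z s))
  have bN := h.bN hb'
  have bH := h.bH hb'
  obtain ⟨s1, b3, bx⟩ : j * b * j⁻¹ = b⁻¹ ∧ b⁻¹ = b * b ∧ Commute b x := by
    rcases hb' with rfl | rfl | rfl
    exacts [by simp, ⟨jx, h.xinv, Commute.refl _⟩, ⟨by rw [← conj_mul, jx]; group, inv_eq_of_mul_eq_one_right (by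
      rw [show x * x * (x * x * (x * x)) = x * (x * x) * (x * (x * x)) by group, h.x3, one_mul]),
      (Commute.refl _).mul_left (Commute.refl _)⟩]
  have jb : j * b = b⁻¹ * j := by rw [← s1]; group
  have jV : ∀ c ∈ N[VV z s], j * c ∉ VV z s := fun c hc o => n (by simpa using mul_mem (le_normalizer o) (inv_mem hc))
  have wu := h.uniq (mul_mem hj bH) (by
      nth_rw 1 [jb]
      rw [mul_assoc, ← mul_assoc j, jj]; group) (jV b bN)
    (mul_mem hw hu) (by
      rw [show j * b * (w * u) = u⁻¹ * (u * j * (b * w)) * u⁻¹⁻¹ by group, ← e]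
      exact conj_mul_self _ (conj_mul_self _ h.zz))
  obtain rfl : w = u := (eq_inv_of_mul_eq_one_left wu).trans (inv_of_sq (h.sq hu))
  have hp := conj_mem_of_mem_norm (inv_mem bN) hu
  have hv := conj_mem_of_mem_norm bN (zVV z s)
  have k : j * (b * z * b⁻¹) * j = b⁻¹ * w * b⁻¹⁻¹ * j * (b⁻¹ * w * b⁻¹⁻¹) := by
    calc _ = j * b * z * (b⁻¹ * j) := by group
      _ = b⁻¹ * j * z * (j * b) := by rw [jb]
      _ = b⁻¹ * (j * z * j⁻¹) * b := by rw [i]; group
      _ = b⁻¹ * w * b * (b⁻¹ * j * (b * b)) * (b⁻¹ * w * b) := by rw [e]; group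
      _ = _ := by rw [← jb, ← b3]; group
  generalize b⁻¹ * w * b⁻¹⁻¹ = p at k hp
  have pv := h.uniq hj jj (fun o => n (le_normalizer o)) (mul_mem hp hv) (by
    have : j * (p * (b * z * b⁻¹)) = (b * z * b⁻¹)⁻¹ * (j * p * j⁻¹) * (b * z * b⁻¹)⁻¹⁻¹ := by
      calc _ = (b * z * b⁻¹)⁻¹ * (j * (j * (b * z * b⁻¹) * j) * p) * (b * z * b⁻¹) := by
            rw [mul_assoc j (b * z * b⁻¹), sq_cancel jj]; group
        _ = (b * z * b⁻¹)⁻¹ * (j * p * j * (p * p)) * (b * z * b⁻¹) := by rw [k]; group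
        _ = _ := by rw [h.sq hp, i]; group
    rw [this]
    exact conj_mul_self _ (conj_mul_self _ (h.sq hp)))
  rw [(eq_inv_of_mul_eq_one_left pv).trans (inv_of_sq (h.sq hv))] at k
  refine ⟨b⁻¹ * j * b, mul_mem (mul_mem (inv_mem bH) hj) bH,
    fun o => n (by simpa [mul_assoc] using mul_mem (mul_mem bN o) (inv_mem bN)), ?_, by simpa using conj_mul_self b⁻¹ jj, ?_⟩
  · rw [show b⁻¹ * j * b * x * (b⁻¹ * j * b)⁻¹ = b⁻¹ * (j * (b * x * b⁻¹) * j⁻¹) * b⁻¹⁻¹ by group,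
      commute_iff_conj.1 bx, jx, commute_iff_conj.1 bx.inv_inv]
  · calc _ = b⁻¹ * (b * z * b⁻¹ * j * (b * z * b⁻¹)) * b := by group
      _ = _ := by rw [← k]; group

theorem LD.exi (h : LD z s t u x y) (gg : g * g = 1) (c : IsConj z g) (gy : Commute g y) (gt : ¬ Commute g t) :
    ∃ a ∈ LL t x, a ≠ 1 ∧ a * a = 1 ∧ Commute g a := by
  rcases Nat.even_or_odd (orderOf (t * g)) with o | o
  · obtain ⟨k, -, a1, a2, a3, a4⟩ := exists_central_of_even h.k'.zz gg o
    obtain ⟨w, hw, l, hl, e⟩ := (mem_sup_of_le_norm ((le_sup_right.trans h.le).trans h.nL)).1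
      (h.sup.ge (mem_cent1.2 a3.symm))
    rw [e] at a1 a2 a4
    have hw' := conj_mem_of_mem_norm h.k'.xn hw
    have b : Commute g (y * w * y⁻¹ * w⁻¹) := by
      have := (a4.mul_right gy.inv_right).inv_right
      rw [show y * w * y⁻¹ * w⁻¹ = y * (w * l) * (l⁻¹ * y⁻¹ * l⁻¹⁻¹) * (w * l)⁻¹ by group,
        commute_iff_conj.1 (h.yL hl).symm.inv_inv]
      exact ((gy.mul_right a4).mul_right gy.inv_right).mul_right a4.inv_right
    have w1 : w = 1 := by
      by_contra o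
      obtain ⟨d, hd, e⟩ := h.k'.cj (mul_mem hw' (inv_mem hw)) fun e =>
        o (h.k'.fpf hw (commute_iff_conj.2 (mul_inv_eq_one.1 e)))
      have gd : Commute g d := by
        rcases hd with rfl | rfl | rfl
        exacts [Commute.one_right _, gy, gy.mul_right gy]
      rw [← e] at b
      exact gt (by simpa [mul_assoc] using (gd.inv_right.mul_right b).mul_right gd)
    rw [w1, one_mul] at a1 a2 a4
    exact ⟨l, hl, a1, a2, a4⟩
  · obtain ⟨k, e⟩ := conj_of_odd h.k'.zz gg o (pow_orderOf_eq_one _)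
    exact absurd (c.trans (isConj_iff.2 ⟨_, by rw [inv_inv]; exact e⟩)) h.nc

theorem LD.braid (h : LD z s t u x y) (rr : r * r = 1) (ry : Commute r y) (rz : Commute r z)
    (rs : r * s * r⁻¹ = s * z) (rx : r * x * r⁻¹ = x⁻¹ * y⁻¹)
    (hc : ∀ g, Commute g z → g * g = 1 → Commute g y → g ∈ VV z s ∨ g = r ∨ g = r * z)
    (hj : j ∈ LL t x) (jx : j * x * j⁻¹ = x⁻¹) (jj : j * j = 1) : r * j * r = j * r * j := by
  have k := h.k4
  have y2 : y * y ∉ LL t x := fun o => by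
    have a := k.sq (k.cz _ o (h.yz.mul_left h.yz))
    rw [mul_assoc, ← mul_assoc y y y, ← mul_assoc y (y * y), h.k'.x3, one_mul] at a
    exact h.k'.xx1 (by rw [a, one_mul])
  have y1 : y ∉ LL t x := fun o => y2 (mul_mem o o)
  have jy := (h.yL hj).symm
  have i := inv_of_sq jj
  have i' := inv_of_sq rr
  have gx : r * j * r⁻¹ * x * (r * j * r⁻¹)⁻¹ = x⁻¹ * y := by
    calc _ = r * (j * (r * x * r⁻¹) * j⁻¹) * r⁻¹ := by rw [mul_inv_rev, mul_inv_rev, inv_inv, i']; group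
      _ = r * x * r⁻¹ * (r * y⁻¹ * r⁻¹) := by
        nth_rw 1 [rx]
        rw [← conj_mul (b := j), commute_iff_conj.1 jy.inv_right, ← conj_inv, jx, inv_inv, conj_mul]
      _ = _ := by rw [rx, commute_iff_conj.1 ry.inv_right, mul_assoc, ← mul_inv_rev, ← h.k'.xinv, inv_inv]
  have gN : r * j * r⁻¹ ∉ N[LL t x] := fun o => y1 (by
    have := conj_mem_of_mem_norm o k.xH
    rwa [gx, mul_mem_cancel_left (inv_mem k.xH)] at this)
  have gy : Commute (r * j * r⁻¹) y := (ry.mul_left jy).mul_left ry.inv_left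
  have rV : r ∈ N[VV z s] := norm_VV ((commute_iff_conj.1 rz).symm ▸ zVV z s) (rs ▸ k.szV)
  obtain ⟨l0, hl0, e0⟩ := k.surj hj jj fun o => k.xx1 (by
    rw [o] at jx; nth_rw 1 [show x = x⁻¹ by simpa using jx]; exact inv_mul_cancel x)
  obtain ⟨a, ha, a1, a2, a3⟩ := h.exi (conj_mul_self r jj) ((isConj_iff.2 ⟨l0, e0.symm⟩).trans (isConj_iff.2 ⟨r, rfl⟩))
    gy fun o => gN (h.nL (mem_cent1.2 o))
  obtain ⟨l, hl, rfl⟩ := k.surj ha a2 a1
  obtain ⟨l, hl, e⟩ : ∃ l ∈ LL t x, r * j * r⁻¹ = l * r * l⁻¹ := by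
    rcases hc (l⁻¹ * (r * j * r⁻¹) * l⁻¹⁻¹) (by simpa [mul_assoc] using (commute_conj_iff l⁻¹).2 a3)
      (conj_mul_self _ (conj_mul_self _ jj)) (((h.yL hl).symm.inv_left.mul_left gy).mul_left
        (h.yL hl).symm.inv_left.inv_left) with o | o | o
    · exact absurd (by simpa [mul_assoc] using le_normalizer (mul_mem (mul_mem hl (k.le o)) (inv_mem hl))) gN
    · exact ⟨l, hl, by
        generalize r * j * r⁻¹ = g at o
        rw [← o]; group⟩
    · refine ⟨l * s, mul_mem hl (k.le (sVV z s)), ?_⟩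
      have : s * r * s⁻¹ = r * z := by
        calc _ = r * (r * s * r⁻¹) * s⁻¹ := by rw [i', ← mul_assoc, ← mul_assoc, rr, one_mul]
          _ = _ := by rw [rs, mul_assoc, commute_iff_conj.1 k.zs.symm]
      rw [show l * s * r * (l * s)⁻¹ = l * (s * r * s⁻¹) * l⁻¹ by group, this, ← o]; group
  have hx := mul_mem (mul_mem (inv_mem hl) k.xH) hl
  have rx' : r * (l⁻¹ * x * l) * r⁻¹ = (l⁻¹ * x * l)⁻¹ * y := by
    calc _ = l⁻¹ * (l * r * l⁻¹ * x * (l * r * l⁻¹)⁻¹) * l := by group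
      _ = _ := by rw [← e, gx, mul_assoc, mul_assoc, (h.yL hl).eq]; group
  have xN : l⁻¹ * x * l ∈ N[VV z s] := by
    by_contra o
    let W := N[LL t x].comap (MulAut.conj r).toMonoidHom
    have yN : y ∈ N[LL t x] := cent_le_norm _ fun _ hw => (h.yL hw).eq.symm
    have wV : ∀ v ∈ VV z s, v ∈ W := fun v hv => le_normalizer (k.le (conj_mem_of_mem_norm rV hv))
    have wx : x ∈ W := show r * x * r⁻¹ ∈ _ from rx ▸ mul_mem (inv_mem (le_normalizer k.xH)) (inv_mem yN)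
    have wx' : l⁻¹ * x * l ∈ W := show r * _ * r⁻¹ ∈ _ from rx' ▸ mul_mem (inv_mem (le_normalizer hx)) yN
    obtain ⟨u, hu, b, hb, d⟩ := k.dc hj jx hx o
    obtain ⟨b, hb', w, hw, rfl⟩ := k.dec hb.1 (conj_mem_of_mem_norm hb.2 (zVV z s))
    have wb : b ∈ W := by
      rcases hb' with rfl | rfl | rfl
      exacts [one_mem _, wx, mul_mem wx wx]
    rw [d, mul_mem_cancel_right (mul_mem wb (wV w hw)), mul_mem_cancel_left (wV u hu)] at wx'
    exact gN wx'
  obtain ⟨b, hb, w, hw, d⟩ := k.dec hx (conj_mem_of_mem_norm xN (zVV z s))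
  have hw' := k.le (conj_mem_of_mem_norm rV hw)
  rcases hb with rfl | rfl | rfl
  · rw [d, one_mul] at rx'
    exact absurd ((mul_mem_cancel_left (inv_mem (k.le hw))).1 (rx' ▸ hw')) y1
  · refine absurd ?_ y2
    have : y * y = b * w * (b⁻¹ * (r * w * r⁻¹)) := by
      calc _ = b * w * ((b * w)⁻¹ * y) * y := by group
        _ = b * w * (b⁻¹ * (y⁻¹ * (r * w * r⁻¹) * y⁻¹⁻¹)) := by rw [← d, ← rx', d, ← conj_mul, rx]; group
        _ = _ := by rw [commute_iff_conj.1 (h.yL hw').inv_left]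
    exact this ▸ mul_mem (mul_mem k.xH (k.le hw)) (mul_mem (inv_mem k.xH) hw')
  obtain ⟨u, hu, c⟩ := k.coset (conj_mem_of_mem_norm (inv_mem k.xn) (inv_mem hw))
  have c' : l⁻¹ * x * l = u⁻¹ * x⁻¹ * u := by
    calc _ = u⁻¹ * (u * (x * (x⁻¹ * w⁻¹ * x⁻¹⁻¹)) * u⁻¹)⁻¹ * u := by rw [d, ← k.xinv]; group
      _ = _ := by rw [c]
  have hu' := conj_mem_of_mem_norm rV hu
  have ru : r * u * r⁻¹ = u := by
    have := k.fpf (mul_mem hu (inv_mem hu')) (commute_iff_conj.2 (by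
      calc _ = u * ((u⁻¹ * x⁻¹ * u)⁻¹ * y) * y⁻¹ * (r * u * r⁻¹)⁻¹ * x⁻¹ := by group
        _ = u * (r * u * r⁻¹)⁻¹ * (r * x * r⁻¹)⁻¹ * (r * u * r⁻¹ * y⁻¹ * (r * u * r⁻¹)⁻¹) * x⁻¹ := by
          rw [← c', ← rx', c']; group
        _ = u * (r * u * r⁻¹)⁻¹ * (y * x * y⁻¹) * x⁻¹ := by
          rw [commute_iff_conj.1 (h.yV hu').symm.inv_right, rx]; group
        _ = _ := by rw [commute_iff_conj.1 h.xy.symm, mul_inv_cancel_right]))
    exact (mul_inv_eq_one.1 this).symm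
  have f : ∀ e, r * j * r = j * r * e * j → j * e * j = e⁻¹ := fun e o => by
    have : e = r * j * (r * j * r * j) := by
      calc e = r * (j * j) * r * e * (j * j) := by rw [jj, mul_one, mul_one, rr, one_mul]
        _ = _ := by rw [o]; group
    rw [this]
    simp only [mul_inv_rev, i, i', mul_assoc, jj, mul_one]
  have jx' : j * x⁻¹ * j⁻¹ = x := by rw [← conj_inv, jx, inv_inv]
  have e' : ∀ b, j * (l * u⁻¹) = b → r * j * r = j * (b * r * b⁻¹) * j := fun b o => by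
    calc _ = l * (u⁻¹ * (r * u * r⁻¹) * r) * l⁻¹ := by rw [ru, inv_mul_cancel, one_mul, ← e, i']
      _ = j⁻¹ * (b * r * b⁻¹) * j := by rw [← o]; group
      _ = _ := by rw [i]
  have yy : j * (x * y⁻¹) * j ≠ (x * y⁻¹)⁻¹ := fun o => by
    nth_rw 2 [← i] at o
    rw [← conj_mul, jx, commute_iff_conj.1 jy.inv_right, mul_inv_rev, inv_inv, ← h.xy.inv_left.eq,
      mul_right_inj] at o
    exact h.k'.xx1 (by nth_rw 1 [← o]; exact inv_mul_cancel y)
  have xr : x * r * x⁻¹ = r * (x * y⁻¹) := by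
    calc _ = r * (r * x * r⁻¹) * x⁻¹ := by rw [i', ← mul_assoc, ← mul_assoc, rr, one_mul]
      _ = r * (x⁻¹ * x⁻¹ * y⁻¹) := by rw [rx, mul_assoc, mul_assoc, mul_assoc, h.xy.inv_inv.eq]
      _ = _ := by rw [← mul_inv_rev, ← k.xinv, inv_inv]
  rcases k.cx (w := j * (l * u⁻¹)) (mul_mem hj (mul_mem hl (inv_mem (k.le hu)))) (commute_iff_conj.2 (by
    calc _ = j * (l * (u⁻¹ * x⁻¹ * u) * l⁻¹)⁻¹ * j⁻¹ := by group
      _ = j * x⁻¹ * j⁻¹ := by rw [← c']; group
      _ = _ := jx')) with o | o | o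
  · simpa using e' _ o
  · exact absurd (f _ (by rw [e' _ o, xr, mul_assoc j r])) yy
  · refine absurd (inv_injective ?_) yy
    have := f (x * y⁻¹)⁻¹ (by
      rw [e' _ o, show x * x * r * (x * x)⁻¹ = x * (x * r * x⁻¹) * x⁻¹ by group, xr,
        show x * (r * (x * y⁻¹)) * x⁻¹ = x * r * x⁻¹ * (x * (x * y⁻¹) * x⁻¹) by group, xr,
        commute_iff_conj.1 ((Commute.refl x).mul_right h.xy.inv_right), mul_assoc r,
        h.xy.inv_right.symm.mul_mul_mul_comm, ← k.xinv, ← mul_inv_rev, ← h.k'.xinv,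
        mul_inv_rev, inv_inv, h.xy.inv_left.eq, mul_assoc j r])
    rw [← this]
    simp only [mul_inv_rev, i, mul_assoc]

end Cfsg.Agent.J8
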