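import Cfsg.Agent.M24.Kit
import Cfsg.Prelude.Def_Spor_J2

/-! # Coordinates for icosians -/

set_option autoImplicit false

namespace Cfsg.Agent.J8

open Cfsg Cfsg.Spor Cfsg.Agent.M24 Quaternion

/-- quaternions over `ℤ[τ]` -/
@[ext] structure Ic where
  (a b c d e f g h : ℤ)

namespace Ic

/-- sum -/
def add (A B : Ic) : Ic := ⟨A.a + B.a, A.b + B.b, A.c + B.c, A.d + B.d, A.e + B.e, A.f + B.f, A.g + B.g, A.h + B.h⟩
/-- difference -/
def sub (A B : Ic) : Ic := ⟨A.a - B.a, A.b - B.b, A.c - B.c, A.d - B.d, A.e - B.e, A.f - B.f, A.g - B.g, A.h - B.h⟩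
/-- multiple -/
def sm (k : ℤ) (A : Ic) : Ic := ⟨k * A.a, k * A.b, k * A.c, k * A.d, k * A.e, k * A.f, k * A.g, k * A.h⟩
/-- quotient -/
def dv (k : ℤ) (A : Ic) : Ic := ⟨A.a / k, A.b / k, A.c / k, A.d / k, A.e / k, A.f / k, A.g / k, A.h / k⟩
/-- conjugate -/
def cj (A : Ic) : Ic := ⟨A.a, A.b, -A.c, -A.d, -A.e, -A.f, -A.g, -A.h⟩
/-- product -/
def mul (A B : Ic) : Ic :=
  ⟨A.a * B.a + A.b * B.b - (A.c * B.c + A.d * B.d) - (A.e * B.e + A.f * B.f) - (A.g * B.g + A.h * B.h),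
   A.a * B.b + A.b * (B.a + B.b) - (A.c * B.d + A.d * (B.c + B.d)) - (A.e * B.f + A.f * (B.e + B.f)) -
     (A.g * B.h + A.h * (B.g + B.h)),
   A.a * B.c + A.b * B.d + (A.c * B.a + A.d * B.b) + (A.e * B.g + A.f * B.h) - (A.g * B.e + A.h * B.f),
   A.a * B.d + A.b * (B.c + B.d) + (A.c * B.b + A.d * (B.a + B.b)) + (A.e * B.h + A.f * (B.g + B.h)) -
     (A.g * B.f + A.h * (B.e + B.f)),
   A.a * B.e + A.b * B.f - (A.c * B.g + A.d * B.h) + (A.e * B.a + A.f * B.b) + (A.g * B.c + A.h * B.d),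
   A.a * B.f + A.b * (B.e + B.f) - (A.c * B.h + A.d * (B.g + B.h)) + (A.e * B.b + A.f * (B.a + B.b)) +
     (A.g * B.d + A.h * (B.c + B.d)),
   A.a * B.g + A.b * B.h + (A.c * B.e + A.d * B.f) - (A.e * B.c + A.f * B.d) + (A.g * B.a + A.h * B.b),
   A.a * B.h + A.b * (B.g + B.h) + (A.c * B.f + A.d * (B.e + B.f)) - (A.e * B.d + A.f * (B.c + B.d)) +
     (A.g * B.b + A.h * (B.a + B.b))⟩
/-- rational part of the norm -/
def nr (A : Ic) : ℤ := A.a * A.a + A.b * A.b + A.c * A.c + A.d * A.d + A.e * A.e + A.f * A.f + A.g * A.g + A.h * A.h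
/-- irrational part of the norm -/
def ns (A : Ic) : ℤ := A.b * (2 * A.a + A.b) + A.d * (2 * A.c + A.d) + A.f * (2 * A.e + A.f) + A.h * (2 * A.g + A.h)
/-- the parity condition -/
def Par (A : Ic) : Prop := (A.a + A.f + A.g + A.h) % 2 = 0 ∧ (A.b + A.e + A.f + A.g) % 2 = 0 ∧
  (A.c + A.e + A.f + A.h) % 2 = 0 ∧ (A.d + A.e + A.g + A.h) % 2 = 0
/-- half of the quaternion -/
noncomputable def hv (A : Ic) : ℍ[ℝ] :=
  ⟨(A.a + A.b * tau) / 2, (A.c + A.d * tau) / 2, (A.e + A.f * tau) / 2, (A.g + A.h * tau) / 2⟩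

@[simp] theorem hv_re (A : Ic) : A.hv.re = (A.a + A.b * tau) / 2 := rfl
@[simp] theorem hv_imI (A : Ic) : A.hv.imI = (A.c + A.d * tau) / 2 := rfl
@[simp] theorem hv_imJ (A : Ic) : A.hv.imJ = (A.e + A.f * tau) / 2 := rfl
@[simp] theorem hv_imK (A : Ic) : A.hv.imK = (A.g + A.h * tau) / 2 := rfl

instance (A : Ic) : Decidable A.Par := by unfold Par; infer_instance

instance : DecidableEq Ic := fun _ _ => decidable_of_iff' _ Ic.ext_iff

end Ic

open Ic

theorem tau_sq : tau * tau = tau + 1 := by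
  have := Real.mul_self_sqrt (show (0 : ℝ) ≤ 5 by norm_num)
  unfold tau; linear_combination this / 4

theorem sig_eq : sig = 1 - tau := by unfold sig tau; ring

theorem sqrt_eq : Real.sqrt 5 = 2 * tau - 1 := by unfold tau; ring

theorem tau_ind {p q r s : ℤ} (h : (p : ℝ) + q * tau = r + s * tau) : p = r ∧ q = s := by
  by_cases e : q = s
  · subst e; exact ⟨by exact_mod_cast add_right_cancel h, rfl⟩
  · have e' : ((q - s : ℤ) : ℝ) ≠ 0 := by exact_mod_cast sub_ne_zero.2 e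
    refine absurd ⟨((2 * (r - p) - (q - s) : ℤ) : ℚ) / ((q - s : ℤ) : ℚ), ?_⟩ (Nat.Prime.irrational_sqrt Nat.prime_five)
    rw [Rat.cast_div, Rat.cast_intCast, Rat.cast_intCast, div_eq_iff e', Nat.cast_ofNat, sqrt_eq]
    push_cast
    linear_combination -2 * h

variable {A B C : Ic}

theorem hv_inj (h : A.hv = B.hv) : A = B := by
  obtain ⟨a, b⟩ := tau_ind ((div_left_inj' two_ne_zero).1 (congrArg QuaternionAlgebra.re h))
  obtain ⟨c, d⟩ := tau_ind ((div_left_inj' two_ne_zero).1 (congrArg QuaternionAlgebra.imI h))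
  obtain ⟨e, f⟩ := tau_ind ((div_left_inj' two_ne_zero).1 (congrArg QuaternionAlgebra.imJ h))
  obtain ⟨g, h⟩ := tau_ind ((div_left_inj' two_ne_zero).1 (congrArg QuaternionAlgebra.imK h))
  exact Ic.ext a b c d e f g h

theorem hv_add (A B : Ic) : (A.add B).hv = A.hv + B.hv := by
  ext <;> simp [add] <;> ring

theorem hv_sub (A B : Ic) : (A.sub B).hv = A.hv - B.hv := by
  ext <;> simp [sub] <;> ring

theorem hv_sm (k : ℤ) (A : Ic) : (A.sm k).hv = (k : ℝ) • A.hv := by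
  ext <;> simp [sm] <;> ring

theorem hv_cj (A : Ic) : A.cj.hv = star A.hv := by
  ext <;> simp [cj] <;> ring

theorem hv_mul (A B : Ic) : (A.mul B).hv = (2 : ℝ) • (A.hv * B.hv) := by
  have := tau_sq
  ext <;> simp [mul]
  · linear_combination (-(A.b * B.b - A.d * B.d - A.f * B.f - A.h * B.h) / 2 : ℝ) * this
  · linear_combination (-(A.b * B.d + A.d * B.b + A.f * B.h - A.h * B.f) / 2 : ℝ) * this
  · linear_combination (-(A.b * B.f - A.d * B.h + A.f * B.b + A.h * B.d) / 2 : ℝ) * this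
  · linear_combination (-(A.b * B.h + A.d * B.f - A.f * B.d + A.h * B.b) / 2 : ℝ) * this

theorem hv_mul' (h : A.mul B = C.sm 2) : A.hv * B.hv = C.hv :=
  smul_right_injective ℍ[ℝ] (two_ne_zero (α := ℝ)) (by
    show (2 : ℝ) • _ = (2 : ℝ) • _
    rw [← hv_mul, h, hv_sm]; norm_num)

theorem normSq_hv (A : Ic) : 4 * normSq A.hv = A.nr + A.ns * tau := by
  simp [normSq_def', nr, ns]
  linear_combination (A.b * A.b + A.d * A.d + A.f * A.f + A.h * A.h : ℝ) * tau_sq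

theorem Ic.Par.four (h : A.Par) : A.nr % 4 = 0 := by
  obtain ⟨a, b, c, d, e, f, g, h'⟩ := A
  obtain ⟨⟨p, h1⟩, ⟨q, h2⟩, ⟨r, h3⟩, ⟨s, h4⟩⟩ : 2 ∣ a + f + g + h' ∧ 2 ∣ b + e + f + g ∧ 2 ∣ c + e + f + h' ∧
    2 ∣ d + e + g + h' := by simpa only [Par, Int.dvd_iff_emod_eq_zero] using h
  refine Int.emod_eq_zero_of_dvd ⟨p * (p - f - g - h') + q * (q - e - f - g) + r * (r - e - f - h') +
    s * (s - e - g - h') + e * e + f * f + g * g + h' * h' + e * f + e * g + e * h' + f * g + f * h' + g * h', ?_⟩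
  rw [show a = 2 * p - f - g - h' by omega, show b = 2 * q - e - f - g by omega, show c = 2 * r - e - f - h' by omega,
    show d = 2 * s - e - g - h' by omega, nr]
  ring

theorem nr_nonneg (A : Ic) : 0 ≤ A.nr := by
  unfold nr; nlinarith [mul_self_nonneg A.a, mul_self_nonneg A.b, mul_self_nonneg A.c, mul_self_nonneg A.d,
    mul_self_nonneg A.e, mul_self_nonneg A.f, mul_self_nonneg A.g, mul_self_nonneg A.h]

/-- zero -/
def O0 : Ic := ⟨0, 0, 0, 0, 0, 0, 0, 0⟩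
/-- one -/
def E1 : Ic := ⟨2, 0, 0, 0, 0, 0, 0, 0⟩
/-- the unit `i` -/
def Ei : Ic := ⟨0, 0, 2, 0, 0, 0, 0, 0⟩
/-- the second generator -/
def Eg : Ic := ⟨1, 0, 1, -1, 0, 0, 0, 1⟩
/-- the element of norm two -/
def Eh : Ic := ⟨1, -2, 1, 0, 1, 0, 1, 0⟩

theorem hv_O0 : O0.hv = 0 := by ext <;> simp [O0]
theorem hv_E1 : E1.hv = 1 := by ext <;> simp [E1]
theorem hv_Ei : Ei.hv = qI := by ext <;> simp [Ei, qI]
theorem hv_Eg : Eg.hv = ⟨1 / 2, sig / 2, 0, tau / 2⟩ := by ext <;> simp [Eg, sig_eq] <;> ring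
theorem hv_Eh : Eh.hv = icoH := by ext <;> simp [Eh, icoH, sqrt_eq]; ring

theorem eq_O0 (h : A.nr = 0) : A = O0 := by
  unfold nr at h
  have := mul_self_nonneg A.a; have := mul_self_nonneg A.b; have := mul_self_nonneg A.c
  have := mul_self_nonneg A.d; have := mul_self_nonneg A.e; have := mul_self_nonneg A.f
  have := mul_self_nonneg A.g; have := mul_self_nonneg A.h
  ext <;> exact mul_self_eq_zero.1 (by omega)

theorem hv_mem (h : A.Par) : A.hv ∈ icosians := by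
  have i : Ei.hv ∈ icosians := hv_Ei ▸ Subring.subset_closure (Or.inl rfl)
  have g : Eg.hv ∈ icosians := hv_Eg ▸ Subring.subset_closure (Or.inr rfl)
  have k : ∀ {A B C : Ic}, A.hv ∈ icosians → B.hv ∈ icosians → A.mul B = C.sm 2 → C.hv ∈ icosians :=
    fun a b c => hv_mul' c ▸ mul_mem a b
  have s : ∀ {A B : Ic}, A.hv ∈ icosians → B.hv ∈ icosians → (A.add B).hv ∈ icosians :=
    fun a b => hv_add _ _ ▸ add_mem a b
  have z : ∀ (n : ℤ) {A : Ic}, A.hv ∈ icosians → (A.sm n).hv ∈ icosians := fun n A a => by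
    rw [hv_sm, Int.cast_smul_eq_zsmul]; exact zsmul_mem a n
  have o : E1.hv ∈ icosians := hv_E1 ▸ one_mem _
  have ig := k (C := ⟨-1, 1, 1, 0, 0, -1, 0, 0⟩) i g (by decide)
  have gi := k (C := ⟨-1, 1, 1, 0, 0, 1, 0, 0⟩) g i (by decide)
  have t : (⟨0, 2, 0, 0, 0, 0, 0, 0⟩ : Ic).hv ∈ icosians := by
    convert s (s (s ig gi) (z (-1) i)) o using 2
    decide
  have ti := k (C := ⟨0, 0, 0, 2, 0, 0, 0, 0⟩) t i (by decide)
  have tg := k (C := ⟨0, 1, -1, 0, 0, 0, 1, 1⟩) t g (by decide)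
  have tig := k (C := ⟨1, 0, 0, 1, -1, -1, 0, 0⟩) t ig (by decide)
  obtain ⟨h1, h2, h3, h4⟩ := h
  convert s (s (s (z ((A.a + 2 * A.e - A.f + A.g - A.h) / 2) o) (z ((A.b - A.e + A.f - A.g) / 2) t))
    (s (z ((A.c - A.e + A.f + 2 * A.g - A.h) / 2) i) (z ((A.d + A.e - A.g + A.h) / 2) ti)))
    (s (s (z (A.h - A.g) g) (z A.g tg)) (s (z (A.e - A.f) ig) (z (-A.e) tig))) using 2
  ext <;> simp only [add, sm, E1, Ei, Eg] <;> omega

theorem mem_ico {x : ℍ[ℝ]} : x ∈ icosians ↔ ∃ A : Ic, A.Par ∧ A.hv = x := by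
  refine ⟨fun h => ?_, fun ⟨A, a, b⟩ => b ▸ hv_mem a⟩
  let T : Subring ℍ[ℝ] :=
    { carrier := {x | ∀ A : Ic, A.Par → ∃ B : Ic, B.Par ∧ B.hv = A.hv * x}
      mul_mem' := fun {x y} hx hy A a =>
        let ⟨B, b, e⟩ := hx A a; let ⟨C, c, e'⟩ := hy B b; ⟨C, c, by rw [e', e, mul_assoc]⟩
      one_mem' := fun A a => ⟨A, a, (mul_one _).symm⟩
      add_mem' := fun {x y} hx hy A a =>
        let ⟨B, b, e⟩ := hx A a; let ⟨C, c, e'⟩ := hy A a
        ⟨B.add C, by simp only [Par, add] at b c ⊢; omega, by rw [hv_add, e, e', mul_add]⟩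
      zero_mem' := fun A _ => ⟨O0, by decide, by rw [hv_O0, mul_zero]⟩
      neg_mem' := fun {x} hx A a =>
        let ⟨B, b, e⟩ := hx A a
        ⟨O0.sub B, by simp only [Par, sub, O0] at b ⊢; omega, by rw [hv_sub, hv_O0, e, zero_sub, mul_neg]⟩ }
  have : icosians ≤ T := Subring.closure_le.2 (by
    rintro _ (rfl | rfl) A a
    · rw [← hv_Ei]
      exact ⟨(A.mul Ei).dv 2, by simp only [Par, mul, dv, Ei] at a ⊢; omega, (hv_mul' (by
        ext <;> simp only [mul, dv, sm, Ei] <;> omega)).symm⟩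
    · rw [← hv_Eg]
      exact ⟨(A.mul Eg).dv 2, by simp only [Par, mul, dv, Eg] at a ⊢; omega, (hv_mul' (by
        simp only [Par] at a
        ext <;> simp only [mul, dv, sm, Eg] <;> omega)).symm⟩)
  simpa [hv_E1] using this h E1 (by decide)

theorem star_mem {x : ℍ[ℝ]} (h : x ∈ icosians) : star x ∈ icosians := by
  obtain ⟨A, a, rfl⟩ := mem_ico.1 h
  exact hv_cj A ▸ hv_mem (by simp only [Par, cj] at a ⊢; omega)

theorem h_mem : icoH ∈ icosians := hv_Eh ▸ hv_mem (by decide)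

theorem h_star : icoH * star icoH = 2 := by
  rw [← hv_Eh, ← hv_cj, hv_mul' (C := E1.add E1) (by decide), hv_add, hv_E1]; norm_num

theorem star_h : star icoH * icoH = 2 := by rw [star_comm_self', h_star]

end Cfsg.Agent.J8
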