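import Cfsg.Agent.J8.I2
import Cfsg.Agent.J8.D
import Cfsg.Agent.M24.Perm

/-! # The icosian axes: checks -/

set_option autoImplicit false
set_option maxRecDepth 100000

namespace Cfsg.Agent.J8

open Cfsg Cfsg.Agent.M24 Ic

/-- evaluate an integer -/
noncomputable def fi (x : ℤ) (k : ℤ → Bool) : Bool :=
  Int.rec (motive := fun _ => Bool) (fun n => force n fun m => k (Int.ofNat m))
    (fun n => force n fun m => k (Int.negSucc m)) x

@[simp] theorem fi_eq (x : ℤ) (k : ℤ → Bool) : fi x k = k x := by
  cases x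
  exacts [force_eq _ fun m => k (Int.ofNat m), force_eq _ fun m => k (Int.negSucc m)]

/-- evaluate a quaternion -/
noncomputable def frc (A : Ic) (k : Ic → Bool) : Bool :=
  fi A.a fun a => fi A.b fun b => fi A.c fun c => fi A.d fun d => fi A.e fun e => fi A.f fun f =>
    fi A.g fun g => fi A.h fun h => k ⟨a, b, c, d, e, f, g, h⟩

@[simp] theorem frc_eq (A : Ic) (k : Ic → Bool) : frc A k = k A := by simp [frc]

/-- membership in a left ideal -/
noncomputable def idb (Q A : Ic) : Bool :=
  frc A fun A => frc (A.mul Q) fun W => frc (W.dv 4) fun B => band (decide (W = B.sm 4)) (decide B.Par)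

/-- the Hermitian product -/
def ip (x y z x' y' z' : Ic) : Ic := ((x.mul x'.cj).add (y.mul y'.cj)).add (z.mul z'.cj)

/-- proportional vectors -/
noncomputable def lin (x y z x' y' z' : Ic) : Bool :=
  frc (ip x y z x' y' z') fun S => band (decide (x.sm 16 = S.mul x'))
    (band (decide (y.sm 16 = S.mul y')) (decide (z.sm 16 = S.mul z')))

/-- a digit -/
def dgt (n k : ℕ) : ℤ := Int.subNatNat (Nat.land (Nat.shiftRight n k) (nat_lit 15)) (nat_lit 8)

/-- a coordinate of an axis -/
noncomputable def axI (i t : ℕ) : Ic :=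
  force (Nat.land (Nat.shiftRight axT (Nat.add (Nat.mul (nat_lit 96) i) t)) (nat_lit 4294967295)) fun n =>
    ⟨dgt n (nat_lit 0), dgt n (nat_lit 4), dgt n (nat_lit 8), dgt n (nat_lit 12), dgt n (nat_lit 16),
      dgt n (nat_lit 20), dgt n (nat_lit 24), dgt n (nat_lit 28)⟩

/-- an axis -/
noncomputable def axK (i : ℕ) (k : Ic → Ic → Ic → Bool) : Bool :=
  frc (axI i (nat_lit 0)) fun x => frc (axI i (nat_lit 32)) fun y => frc (axI i (nat_lit 64)) fun z => k x y z

/-- a number for a quaternion -/
def enc (A : Ic) : ℕ := (A.a + 1099511627776 + 2199023255552 * (A.b + 1099511627776 + 2199023255552 *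
  (A.c + 1099511627776 + 2199023255552 * (A.d + 1099511627776 + 2199023255552 *
  (A.e + 1099511627776 + 2199023255552 * (A.f + 1099511627776 + 2199023255552 *
  (A.g + 1099511627776 + 2199023255552 * (A.h + 1099511627776)))))))).toNat

/-- look up the axis -/
noncomputable def look (x y z : Ic) (k : ℕ → Bool) : Bool :=
  frc (x.add (y.sm 1048576)).cj fun P => frc ((x.add (y.sm 64)).add (z.sm 4096)) fun Q => frc (P.mul Q) fun W =>
    force (enc W) fun n => tX.find n fun a _ => k a

/-- the vector spans an axis -/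
noncomputable def gb (x y z : Ic) : Bool := look x y z fun a => band (Nat.blt a 315) (axK a (lin x y z))

/-- all arrangements -/
noncomputable def gb6 (x y z : Ic) : Bool :=
  band (band (gb x y z) (band (gb x z y) (gb y x z))) (band (gb y z x) (band (gb z x y) (gb z y x)))

/-- one coordinate -/
noncomputable def lp (b : ℕ) (K : ℤ → ℕ → Bool) : Bool :=
  band (K 0 b) (bor (Nat.blt b 1) (band (force (Nat.sub b 1) fun n => band (K 1 n) (K (-1) n))
    (bor (Nat.blt b 4) (force (Nat.sub b 4) fun n => band (K 2 n) (K (-2) n)))))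

/-- all short vectors -/
noncomputable def en8 (P : Ic → ℕ → Bool) : Bool :=
  lp 8 fun a n => lp n fun b n => lp n fun c n => lp n fun d n => lp n fun e n => lp n fun f n =>
    lp n fun g n => lp n fun h n => P ⟨a, b, c, d, e, f, g, h⟩ n

theorem ck1 : band (tX.srt 0 (2 ^ 328)) (nall 315 fun i => axK i fun x y z =>
    band (band (decide (x.Par ∧ y.Par ∧ z.Par ∧ x.nr + y.nr + z.nr = 16 ∧ x.ns + y.ns + z.ns = 0))
      (band (idb Eh.cj (x.sub y)) (band (idb Eh.cj (y.sub z)) (idb Eh ((x.add y).add z)))))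
    (look x y z (Nat.beq i))) = true := by decide +kernel

/-- the check of a reflection -/
noncomputable def rck (a p : ℕ) : Bool := axK p fun r s t => nall 315 fun i => axK i fun x y z =>
  frc (ip x y z r s t) fun S => frc ((x.sm 8).sub (S.mul r)) fun u => frc ((y.sm 8).sub (S.mul s)) fun v =>
    frc ((z.sm 8).sub (S.mul t)) fun w => axK (apw (nat_lit 9) (nat_lit 511) (jA a) i) (lin u v w)

theorem ck2 : band (band (rck 0 0) (rck 5 298)) (band (rck 10 304) (rck 14 63)) = true := by decide +kernel

theorem ck3 : en8 (fun A n => bor (!decide A.Par) (band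
    (bor (!Nat.beq n 4) (band (decide (A.ns = 0 ∨ A.ns = 4)) (bor (!idb Eh.cj (E1.sub A)) (decide (A ∈ L1)))))
    (bor (!Nat.beq n 0) (band (band (decide (-4 ≤ A.ns))
      (bor (!idb Eh.cj (E1.sub A)) (L1.all fun B => bor (!decide (B.ns + A.ns = 0))
        (bor (!idb Eh ((E1.add B).add A)) (gb6 E1 B A)))))
      (bor (!decide (A.ns = 0)) (bor (!idb Eh.cj A) (bor (!idb Eh (Eh.add A)) (gb6 Eh A O0)))))))) = true := by
  decide +kernel

theorem ck4 : gb6 (E1.sm 2) O0 O0 = true := by decide +kernel

end Cfsg.Agent.J8
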