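import Cfsg.Agent.J8.I1

/-! # The icosian Leech lattice and its reflections -/

set_option autoImplicit false

namespace Cfsg.Agent.J8

open Cfsg Cfsg.Spor Quaternion

variable {x y z u q : ℍ[ℝ]} {r w a b : Fin 3 → ℍ[ℝ]}

theorem li_add (a : x ∈ leftIdeal q) (b : y ∈ leftIdeal q) : x + y ∈ leftIdeal q :=
  let ⟨c, hc, e⟩ := a; let ⟨d, hd, e'⟩ := b; ⟨c + d, add_mem hc hd, by rw [e, e', add_mul]⟩

theorem li_mul (h : u ∈ icosians) (a : x ∈ leftIdeal q) : u * x ∈ leftIdeal q :=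
  let ⟨c, hc, e⟩ := a; ⟨u * c, mul_mem h hc, by rw [e, mul_assoc]⟩

theorem li_sub (a : x ∈ leftIdeal q) (b : y ∈ leftIdeal q) : x - y ∈ leftIdeal q :=
  let ⟨c, hc, e⟩ := a; let ⟨d, hd, e'⟩ := b; ⟨c - d, sub_mem hc hd, by rw [e, e', sub_mul]⟩

theorem li_symm (a : x - y ∈ leftIdeal q) : y - x ∈ leftIdeal q := by
  simpa using li_mul (neg_mem (one_mem _)) a

theorem lam_comb (h : u ∈ icosians) (ha : a ∈ icoLeech) (hb : b ∈ icoLeech) : (fun t => a t - u * b t) ∈ icoLeech :=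
  ⟨fun t => sub_mem (ha.1 t) (mul_mem h (hb.1 t)),
    by convert li_sub ha.2.1 (li_mul h hb.2.1) using 1; noncomm_ring,
    by convert li_sub ha.2.2.1 (li_mul h hb.2.2.1) using 1; noncomm_ring,
    by convert li_sub ha.2.2.2 (li_mul h hb.2.2.2) using 1; noncomm_ring⟩

theorem qip_eq (a b : Fin 3 → ℍ[ℝ]) : qip a b = a 0 * star (b 0) + a 1 * star (b 1) + a 2 * star (b 2) :=
  Fin.sum_univ_three _

theorem half_mem (ha : a ∈ icoLeech) (hb : b ∈ icoLeech) : (1 / 2 : ℝ) • qip a b ∈ icosians := by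
  obtain ⟨p, hp, e1⟩ := li_symm ha.2.1
  obtain ⟨q, hq, e2⟩ := li_symm (sub_add_sub_cancel (a 0) (a 1) (a 2) ▸ li_add ha.2.1 ha.2.2.1)
  obtain ⟨d, hd, e3⟩ := ha.2.2.2
  obtain ⟨p', hp', f1⟩ := li_symm hb.2.1
  obtain ⟨q', hq', f2⟩ := li_symm (sub_add_sub_cancel (b 0) (b 1) (b 2) ▸ li_add hb.2.1 hb.2.2.1)
  obtain ⟨d', hd', f3⟩ := hb.2.2.2
  have a1 : a 1 = a 0 + p * icoH := by rw [← e1]; abel
  have a2 : a 2 = a 0 + q * icoH := by rw [← e2]; abel
  have b1 : star (b 1) = star (b 0) + star icoH * star p' := by rw [← star_mul, ← f1, star_sub]; abel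
  have b2 : star (b 2) = star (b 0) + star icoH * star q' := by rw [← star_mul, ← f2, star_sub]; abel
  have b3 := congrArg star f3
  rw [star_mul, star_star, star_add, star_add] at b3
  have k1 : ∀ x y : ℍ[ℝ], x * icoH * (star icoH * y) = 2 * (x * y) := fun x y => by
    rw [mul_assoc, ← mul_assoc icoH, h_star]; noncomm_ring
  have k2 : ∀ x y : ℍ[ℝ], x * star icoH * (icoH * y) = 2 * (x * y) := fun x y => by
    rw [mul_assoc, ← mul_assoc (star icoH), star_h]; noncomm_ring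
  have : qip a b = 2 * (d * star d' - a 0 * (icoH * star d') - (p + q) * (star p' + star q') -
      (p + q) * icoH * star (b 0) + p * star p' + q * star q') := by
    have c1 : (a 0 + a 1 + a 2) * (icoH * star d') = 2 * (d * star d') := by rw [e3, k2]
    have c2 := k1 (p + q) (star p' + star q')
    have c3 := k1 p (star p')
    have c4 := k1 q (star q')
    simp only [mul_add (2 : ℍ[ℝ]), mul_sub (2 : ℍ[ℝ])]
    rw [← c1, ← c2, ← c3, ← c4, qip_eq, ← b3, a1, a2, b1, b2]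
    noncomm_ring
  rw [this, two_mul, ← two_smul ℝ, smul_smul, show (1 / 2 * 2 : ℝ) = 1 by norm_num, one_smul]
  have s := @star_mem
  have h := h_mem
  exact add_mem (add_mem (sub_mem (sub_mem (sub_mem (mul_mem hd (s hd')) (mul_mem (ha.1 0) (mul_mem h (s hd'))))
    (mul_mem (add_mem hp hq) (add_mem (s hp') (s hq')))) (mul_mem (mul_mem (add_mem hp hq) h) (s (hb.1 0))))
    (mul_mem hp (s hp'))) (mul_mem hq (s hq'))

theorem qrefl_mem (hr : r ∈ icoLeech) (ha : a ∈ icoLeech) : qrefl r a ∈ icoLeech := lam_comb (half_mem ha hr) ha hr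

theorem qip_left (a b w : Fin 3 → ℍ[ℝ]) (u : ℍ[ℝ]) : qip (fun t => a t - u * b t) w = qip a w - u * qip b w := by
  simp only [qip_eq]; noncomm_ring

theorem qip_right (a b w : Fin 3 → ℍ[ℝ]) (u : ℍ[ℝ]) : qip w (fun t => a t - u * b t) = qip w a - qip w b * star u := by
  simp only [qip_eq, star_sub, star_mul]; noncomm_ring

theorem qip_star (a b : Fin 3 → ℍ[ℝ]) : star (qip a b) = qip b a := by
  simp only [qip_eq, star_add, star_mul, star_star]

theorem four_eq (x : ℍ[ℝ]) : x * 4 = (4 : ℝ) • x := by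
  rw [ofNat_smul_eq_nsmul, nsmul_eq_mul', Nat.cast_ofNat]

theorem qip_refl (h : qip r r = 4) (a b : Fin 3 → ℍ[ℝ]) : qip (qrefl r a) (qrefl r b) = qip a b := by
  unfold qrefl
  rw [qip_left, qip_right, qip_right, h, Quaternion.star_smul, qip_star, mul_sub, ← mul_assoc, four_eq]
  simp only [mul_smul_comm, smul_mul_assoc, smul_smul]
  module

theorem qrefl_qrefl (h : qip r r = 4) (a : Fin 3 → ℍ[ℝ]) : qrefl r (qrefl r a) = a := funext fun t => by
  show a t - _ - ((1 / 2 : ℝ) • qip (fun t => a t - _ * r t) r) * r t = _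
  rw [qip_left, h, four_eq]
  simp only [smul_mul_assoc, sub_mul, smul_sub, smul_smul]
  module

theorem qrefl_conj (h : qip a a = 4) (r x : Fin 3 → ℍ[ℝ]) :
    qrefl a (qrefl r x) = qrefl (qrefl a r) (qrefl a x) := funext fun t => by
  show x t - _ - ((1 / 2 : ℝ) • qip (fun t => x t - _ * r t) a) * a t =
    x t - _ - ((1 / 2 : ℝ) • qip (qrefl a x) (qrefl a r)) * (r t - _)
  rw [qip_left, qip_refl h]
  simp only [smul_mul_assoc, sub_mul, mul_sub, smul_sub, smul_smul, mul_smul_comm, mul_assoc]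
  module

theorem qrefl_congr (e : ∀ t, w t = u * r t) (hw : qip w w = 4) (hr : qip r r = 4) : qrefl w = qrefl r := by
  have k : ∀ x, qip x w = qip x r * star u := fun x => by simp only [qip_eq, e, star_mul]; noncomm_ring
  have k' : qip w r = u * qip r r := by simp only [qip_eq, e]; noncomm_ring
  rw [k, k', hr, four_eq, smul_mul_assoc, ← one_mul (4 : ℍ[ℝ]), four_eq] at hw
  have n : star u * u = 1 := by rw [star_comm_self', smul_right_injective _ (by norm_num) hw]
  funext x t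
  simp only [qrefl, k, e, smul_mul_assoc, mul_assoc, ← mul_assoc (star u), n, one_mul]

/-- the reflection as a permutation -/
noncomputable def rf (r : icoLeech) (h : qip r.1 r = 4) : twoJ2 :=
  ⟨Function.Involutive.toPerm (fun x => ⟨qrefl r x, qrefl_mem r.2 x.2⟩) fun x => Subtype.ext (qrefl_qrefl h x),
    Subgroup.subset_closure ⟨r, h, fun _ => rfl⟩⟩

theorem rf_conj {a r s : icoLeech} (ha : qip a.1 a = 4) (hr : qip r.1 r = 4) (hs : qip s.1 s = 4)
    (e : qrefl (qrefl a r) = qrefl s) : rf a ha * rf r hr * (rf a ha)⁻¹ = rf s hs :=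
  mul_inv_eq_iff_eq_mul.2 (Subtype.ext (Equiv.ext fun x => Subtype.ext ((qrefl_conj ha r x).trans (congrFun e _))))

theorem two_mem : (![2, 0, 0] : Fin 3 → ℍ[ℝ]) ∈ icoLeech ∧ (![0, 2, 0] : Fin 3 → ℍ[ℝ]) ∈ icoLeech := by
  have t : (2 : ℍ[ℝ]) ∈ icosians := ofNat_mem _ 2
  have a : (2 : ℍ[ℝ]) ∈ leftIdeal icoH := ⟨_, star_mem h_mem, star_h.symm⟩
  have b : (2 : ℍ[ℝ]) ∈ leftIdeal (star icoH) := ⟨_, h_mem, h_star.symm⟩
  refine ⟨⟨fun i => ?_, by simpa using a, by simpa using li_sub a a, by simpa using b⟩,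
    fun i => ?_, li_symm (by simpa using a), by simpa using a, by simpa using b⟩ <;>
  fin_cases i <;> simp [t]

theorem rf_inj {r s : icoLeech} {hr : qip r.1 r = 4} {hs : qip s.1 s = 4} (e : rf r hr = rf s hs) (t : Fin 3) :
    star (r.1 0) * r.1 t = star (s.1 0) * s.1 t ∧ star (r.1 1) * r.1 t = star (s.1 1) * s.1 t := by
  have k : ∀ x : icoLeech, qip x.1 r * r.1 t = qip x.1 s * s.1 t := fun x => by
    have : qrefl r x t = qrefl s x t := congrArg (fun g : twoJ2 => (g.1 x).1 t) e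
    simp only [qrefl, sub_right_inj, smul_mul_assoc] at this
    exact smul_right_injective _ (by norm_num) this
  have a := k ⟨_, two_mem.1⟩
  have b := k ⟨_, two_mem.2⟩
  simp [qip_eq, mul_assoc] at a b
  have n0 : icoH ≠ 0 := fun o => by simpa [icoH] using congrArg QuaternionAlgebra.imI o
  have n : (2 : ℍ[ℝ]) ≠ 0 := h_star ▸ mul_ne_zero n0 (star_ne_zero.2 n0)
  exact ⟨a.resolve_right n, b.resolve_right n⟩

end Cfsg.Agent.J8
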