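import Cfsg.Agent.J8.I3
import Cfsg.Agent.J8.I4

/-! # The 315 icosian reflections -/

set_option autoImplicit false

namespace Cfsg.Agent.J8

open Cfsg Cfsg.Spor Cfsg.Agent.M24 Quaternion Ic

variable {A B Q X Y Z X' Y' Z' : Ic} {x y z u q : ℍ[ℝ]} {r : Fin 3 → ℍ[ℝ]} {i j : ℕ}

theorem idb_iff (hq : Q.hv = star q) (h2 : q * star q = 2) : idb Q A = true ↔ A.hv ∈ leftIdeal q := by
  simp only [idb, frc_eq, band_eq, Bool.and_eq_true, decide_eq_true_eq]
  have t : ∀ x : ℍ[ℝ], x * 2 = (2 : ℝ) • x := fun x => by rw [ofNat_smul_eq_nsmul, nsmul_eq_mul', Nat.cast_ofNat]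
  constructor
  · rintro ⟨a, b⟩
    refine ⟨_, hv_mem b, ?_⟩
    have := congrArg (fun c : Ic => c.hv * q) a
    simp only [hv_mul, hv_sm, hq, smul_mul_assoc, mul_assoc, star_comm_self', h2, t, smul_smul] at this
    norm_num at this
    exact this
  · rintro ⟨c, hc, e⟩
    obtain ⟨B, b, rfl⟩ := mem_ico.1 hc
    have : A.mul Q = B.sm 4 := hv_inj (by
      rw [hv_mul, hv_sm, e, hq, mul_assoc, h2, t, smul_smul]; norm_num)
    have d : (B.sm 4).dv 4 = B := by ext <;> simp [dv, sm]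
    rw [this, d]
    exact ⟨rfl, b⟩

theorem idb1 : idb Eh.cj A = true ↔ A.hv ∈ leftIdeal icoH := idb_iff (by rw [hv_cj, hv_Eh]) h_star

theorem idb2 : idb Eh A = true ↔ A.hv ∈ leftIdeal (star icoH) :=
  idb_iff (by rw [star_star, hv_Eh]) (by rw [star_star, star_h])

/-- the vector -/
noncomputable def vec (X Y Z : Ic) : Fin 3 → ℍ[ℝ] := ![X.hv, Y.hv, Z.hv]

theorem ip_hv (X Y Z X' Y' Z' : Ic) : (ip X Y Z X' Y' Z').hv = (2 : ℝ) • qip (vec X Y Z) (vec X' Y' Z') := by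
  simp [ip, hv_add, hv_mul, hv_cj, qip_eq, vec]

theorem norm3 : qip ![x, y, z] ![x, y, z] = 4 ↔ normSq x + normSq y + normSq z = 4 := by
  have : (4 : ℍ[ℝ]) = ((4 : ℝ) : ℍ[ℝ]) := rfl
  simp only [qip_eq, self_mul_star, this]
  rw [← coe_add, ← coe_add, coe_inj]
  rfl

theorem norm_vec : qip (vec X Y Z) (vec X Y Z) = 4 ↔ X.nr + Y.nr + Z.nr = 16 ∧ X.ns + Y.ns + Z.ns = 0 := by
  have a := normSq_hv X; have b := normSq_hv Y; have c := normSq_hv Z
  rw [vec, norm3]
  refine ⟨fun h => tau_ind (by push_cast; linear_combination 4 * h - a - b - c), fun ⟨d, e⟩ => ?_⟩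
  replace d := congrArg (Int.cast : ℤ → ℝ) d
  replace e := congrArg (Int.cast : ℤ → ℝ) e
  push_cast at d e
  linear_combination (a + b + c + d + tau * e) / 4

theorem lin_sound (h : lin X Y Z X' Y' Z' = true) : ∃ u, ∀ t, vec X Y Z t = u * vec X' Y' Z' t := by
  simp only [lin, frc_eq, band_eq, Bool.and_eq_true, decide_eq_true_eq] at h
  have k : ∀ {A B : Ic}, A.sm 16 = (ip X Y Z X' Y' Z').mul B →
      A.hv = ((1 / 8 : ℝ) • (ip X Y Z X' Y' Z').hv) * B.hv := fun e => by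
    have := congrArg hv e
    rw [hv_sm, hv_mul] at this
    rw [smul_mul_assoc, show (1 / 8 : ℝ) = 1 / 16 * 2 by norm_num, mul_smul, ← this, smul_smul]; norm_num
  exact ⟨_, fun t => by fin_cases t; exacts [k h.1, k h.2.1, k h.2.2]⟩

/-- the axes -/
noncomputable def axv (i : ℕ) : Fin 3 → ℍ[ℝ] := vec (axI i 0) (axI i 32) (axI i 64)

theorem axK_eq (i : ℕ) (k : Ic → Ic → Ic → Bool) : axK i k = k (axI i 0) (axI i 32) (axI i 64) := by
  simp only [axK, frc_eq]

theorem ax_ok (hi : i < 315) : axv i ∈ icoLeech ∧ qip (axv i) (axv i) = 4 ∧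
    look (axI i 0) (axI i 32) (axI i 64) (Nat.beq i) = true := by
  have := ck1
  simp only [band_eq, Bool.and_eq_true, nall_iff, axK_eq, decide_eq_true_eq, idb1, idb2, hv_sub, hv_add] at this
  obtain ⟨⟨⟨a, b, c, d⟩, e⟩, g⟩ := this.2 i hi
  exact ⟨⟨fun t => by fin_cases t; exacts [hv_mem a, hv_mem b, hv_mem c], e⟩, norm_vec.2 d, g⟩

theorem ax_inj (hi : i < 315) (hj : j < 315) (e : ∀ t, star (axv i 0) * axv i t = star (axv j 0) * axv j t ∧
    star (axv i 1) * axv i t = star (axv j 1) * axv j t) : i = j := by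
  have a := (ax_ok hi).2.2
  have b := (ax_ok hj).2.2
  have s : tX.srt 0 (2 ^ 328) = true := by
    have := ck1
    rw [band_eq, Bool.and_eq_true] at this
    exact this.1
  simp only [look, frc_eq, force_eq] at a b
  have k : ∀ i, (((axI i 0).add ((axI i 32).sm 1048576)).cj.mul
      (((axI i 0).add ((axI i 32).sm 64)).add ((axI i 64).sm 4096))).hv = (2 : ℝ) •
      ((star (axv i 0) + (1048576 : ℝ) • star (axv i 1)) * (axv i 0 + (64 : ℝ) • axv i 1 + (4096 : ℝ) • axv i 2)) :=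
    fun i => by simp [hv_mul, hv_cj, hv_add, hv_sm, axv, vec]
  rw [hv_inj ((k i).trans (Eq.trans (by simp only [mul_add, add_mul, smul_mul_assoc, mul_smul_comm, e]) (k j).symm))]
    at a
  obtain ⟨c, d, o, a⟩ := T.find_sound a
  rw [T.find_complete s o, Nat.beq_eq] at b
  exact (Nat.beq_eq ▸ a :).trans b.symm

/-- the reflection is one of the list -/
def Good (r : Fin 3 → ℍ[ℝ]) : Prop := ∃ i < 315, qrefl r = qrefl (axv i)

theorem gb_sound (h : gb X Y Z = true) (n : qip (vec X Y Z) (vec X Y Z) = 4) : Good (vec X Y Z) := by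
  simp only [gb, look, frc_eq, force_eq] at h
  obtain ⟨a, -, -, b⟩ := T.find_sound h
  rw [band_eq, Bool.and_eq_true, Nat.blt_eq, axK_eq] at b
  obtain ⟨u, e⟩ := lin_sound b.2
  exact ⟨a, b.1, qrefl_congr e n (ax_ok b.1).2.1⟩

/-- all arrangements -/
def G6 (x y z : ℍ[ℝ]) : Prop := Good ![x, y, z] ∧ Good ![x, z, y] ∧ Good ![y, x, z] ∧ Good ![y, z, x] ∧
  Good ![z, x, y] ∧ Good ![z, y, x]

theorem gb6_sound (h : gb6 X Y Z = true) (n : X.nr + Y.nr + Z.nr = 16 ∧ X.ns + Y.ns + Z.ns = 0) :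
    G6 X.hv Y.hv Z.hv := by
  simp only [gb6, band_eq, Bool.and_eq_true] at h
  exact ⟨gb_sound h.1.1 (norm_vec.2 n), gb_sound h.1.2.1 (norm_vec.2 (by omega)),
    gb_sound h.1.2.2 (norm_vec.2 (by omega)), gb_sound h.2.1 (norm_vec.2 (by omega)),
    gb_sound h.2.2.1 (norm_vec.2 (by omega)), gb_sound h.2.2.2 (norm_vec.2 (by omega))⟩

theorem G6.mul (h : G6 x y z) (n : normSq x + normSq y + normSq z = 4) (hu : normSq u = 1) :
    G6 (u * x) (u * y) (u * z) := by
  have k : ∀ {x y z : ℍ[ℝ]}, Good ![x, y, z] → normSq x + normSq y + normSq z = 4 → Good ![u * x, u * y, u * z] :=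
    fun ⟨i, a, b⟩ n => ⟨i, a, (qrefl_congr (u := u) (fun t => by fin_cases t <;> rfl)
      (norm3.2 (by simpa [hu] using n)) (norm3.2 n)).trans b⟩
  obtain ⟨a, b, c, d, e, f⟩ := h
  exact ⟨k a n, k b (by linarith), k c (by linarith), k d (by linarith), k e (by linarith), k f (by linarith)⟩

theorem lp_sound {b n : ℕ} {K : ℤ → ℕ → Bool} (h : lp b K = true) {c : ℤ} (hb : b ≤ 8) (e : c * c + n = b) :
    K c n = true := by
  simp only [lp, band_eq, bor_eq, force_eq, Bool.and_eq_true, Bool.or_eq_true, Nat.blt_eq, Nat.sub_eq] at h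
  have a : -3 < c ∧ c < 3 := by constructor <;> nlinarith
  obtain ⟨h0, h1⟩ := h
  obtain ⟨a1, a2⟩ := a
  interval_cases c
  · exact (show b - 4 = n by omega) ▸ ((h1.resolve_left (by omega)).2.resolve_left (by omega)).2
  · exact (show b - 1 = n by omega) ▸ (h1.resolve_left (by omega)).1.2
  · exact (show b = n by omega) ▸ h0
  · exact (show b - 1 = n by omega) ▸ (h1.resolve_left (by omega)).1.1
  · exact (show b - 4 = n by omega) ▸ ((h1.resolve_left (by omega)).2.resolve_left (by omega)).1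

theorem en8_sound {P : Ic → ℕ → Bool} (h : en8 P = true) {n : ℕ} (e : A.nr + n = 8) : P A n = true := by
  have k : ∀ {b : ℕ} {K : ℤ → ℕ → Bool} {c s : ℤ}, lp b K = true → b ≤ 8 → 0 ≤ s → c * c + s = b →
      ∃ n : ℕ, n ≤ 8 ∧ s = n ∧ K c n = true := fun {b K c s} h hb hs e => by
    obtain ⟨n, rfl⟩ := Int.eq_ofNat_of_zero_le hs
    exact ⟨n, by have := mul_self_nonneg c; omega, rfl, lp_sound h hb e⟩
  have := mul_self_nonneg A.b; have := mul_self_nonneg A.c
  have := mul_self_nonneg A.d; have := mul_self_nonneg A.e; have := mul_self_nonneg A.f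
  have := mul_self_nonneg A.g; have := mul_self_nonneg A.h
  unfold nr at e
  obtain ⟨_, a, e, h⟩ := k (c := A.a) (s := 8 - A.a * A.a) h le_rfl (by omega) (by simp)
  obtain ⟨_, a, e, h⟩ := k (c := A.b) h a (by omega) (add_sub_cancel _ _)
  obtain ⟨_, a, e, h⟩ := k (c := A.c) h a (by omega) (add_sub_cancel _ _)
  obtain ⟨_, a, e, h⟩ := k (c := A.d) h a (by omega) (add_sub_cancel _ _)
  obtain ⟨_, a, e, h⟩ := k (c := A.e) h a (by omega) (add_sub_cancel _ _)
  obtain ⟨_, a, e, h⟩ := k (c := A.f) h a (by omega) (add_sub_cancel _ _)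
  obtain ⟨_, a, e, h⟩ := k (c := A.g) h a (by omega) (add_sub_cancel _ _)
  exact lp_sound h a (by omega)

theorem short4 (a : A.Par) (n : A.nr = 4) : (A.ns = 0 ∨ A.ns = 4) ∧ (1 - A.hv ∈ leftIdeal icoH → A ∈ L1) := by
  have := en8_sound (A := A) (n := 4) ck3 (by omega)
  simp only [bor_eq, band_eq, Bool.or_eq_true, Bool.and_eq_true, Bool.not_eq_true', ← Bool.not_eq_true,
    decide_eq_true_eq, idb1, hv_sub, hv_E1, Nat.beq_eq] at this
  have := ((this.resolve_left (not_not.2 a)).1.resolve_left (by simp))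
  exact ⟨this.1, fun o => this.2.resolve_left (not_not.2 o)⟩

theorem short8 (a : A.Par) (n : A.nr = 8) : (-4 ≤ A.ns ∧ (1 - A.hv ∈ leftIdeal icoH → ∀ B ∈ L1, B.ns + A.ns = 0 →
    1 + B.hv + A.hv ∈ leftIdeal (star icoH) → gb6 E1 B A = true)) ∧ (A.ns = 0 → A.hv ∈ leftIdeal icoH →
      icoH + A.hv ∈ leftIdeal (star icoH) → gb6 Eh A O0 = true) := by
  have := en8_sound (A := A) (n := 0) ck3 (by omega)
  simp only [bor_eq, band_eq, Bool.or_eq_true, Bool.and_eq_true, Bool.not_eq_true', ← Bool.not_eq_true,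
    decide_eq_true_eq, idb1, idb2, hv_sub, hv_add, hv_E1, hv_Eh, Nat.beq_eq, List.all_eq_true,
    ← imp_iff_not_or] at this
  simpa only [Bool.not_eq_true, Bool.not_eq_false] using (this a).2 trivial

theorem nr_of (e : normSq A.hv = normSq B.hv) : A.nr = B.nr ∧ A.ns = B.ns :=
  tau_ind (by rw [← normSq_hv, ← normSq_hv, e])

theorem unit_mul (h : normSq u = 1) (x : ℍ[ℝ]) : u * (star u * x) = x := by
  rw [← mul_assoc, self_mul_star, h, coe_one, one_mul]

theorem lam_mul (hu : u ∈ icosians) (h : ![x, y, z] ∈ icoLeech) : ![u * x, u * y, u * z] ∈ icoLeech :=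
  ⟨fun t => by fin_cases t; exacts [mul_mem hu (h.1 0), mul_mem hu (h.1 1), mul_mem hu (h.1 2)],
    by simpa [mul_sub] using li_mul hu h.2.1, by simpa [mul_sub] using li_mul hu h.2.2.1,
    by simpa [mul_add] using li_mul hu h.2.2.2⟩

theorem lam12 (h : ![x, y, z] ∈ icoLeech) : ![y, x, z] ∈ icoLeech :=
  ⟨fun t => by fin_cases t; exacts [h.1 1, h.1 0, h.1 2], li_symm h.2.1,
    by simpa using li_add h.2.1 h.2.2.1, by simpa [add_comm y x] using h.2.2.2⟩

theorem lam23 (h : ![x, y, z] ∈ icoLeech) : ![x, z, y] ∈ icoLeech :=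
  ⟨fun t => by fin_cases t; exacts [h.1 0, h.1 2, h.1 1], by simpa using li_add h.2.1 h.2.2.1,
    li_symm h.2.2.1, by simpa [add_right_comm x z y] using h.2.2.2⟩

theorem unit_of (n : A.nr = 4) (s : A.ns = 0) : normSq A.hv = 1 := by
  have := normSq_hv A
  rw [n, s] at this
  push_cast at this
  linarith

theorem core1 (h : vec X Y Z ∈ icoLeech) (n : qip (vec X Y Z) (vec X Y Z) = 4) (a : X.nr = 4) (b : X.ns = 0)
    (c : Y.nr = 4) : G6 X.hv Y.hv Z.hv := by
  have u := unit_of a b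
  have l := lam_mul (star_mem (h.1 0)) h
  obtain ⟨Y', y1, y2⟩ := mem_ico.1 (l.1 1)
  obtain ⟨Z', z1, z2⟩ := mem_ico.1 (l.1 2)
  change Y'.hv = star X.hv * Y.hv at y2
  change Z'.hv = star X.hv * Z.hv at z2
  have x2 : star X.hv * X.hv = 1 := by rw [star_mul_self, u, coe_one]
  have ny := nr_of (A := Y') (B := Y) (by rw [y2, map_mul, normSq_star, u, one_mul])
  have nz := nr_of (A := Z') (B := Z) (by rw [z2, map_mul, normSq_star, u, one_mul])
  have m := norm_vec.1 n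
  change ![star X.hv * X.hv, star X.hv * Y.hv, star X.hv * Z.hv] ∈ _ at l
  rw [x2, ← y2, ← z2] at l
  have := (gb6_sound ((short8 z1 (by omega)).1.2 (lam23 l).2.1 _ ((short4 y1 (by omega)).2 l.2.1) (by omega) l.2.2.2)
    (by simp only [show E1.nr = 4 by decide, show E1.ns = 0 by decide]; omega)).mul (u := X.hv) (by
      rw [hv_E1, y2, z2, ← x2]
      simpa [u] using norm3.1 n) u
  rwa [hv_E1, y2, z2, mul_one, unit_mul u, unit_mul u] at this

theorem core0 (n : normSq x = 4) : G6 x 0 0 := by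
  have := (gb6_sound ck4 (by decide)).mul (u := (1 / 2 : ℝ) • x) (by
    rw [hv_O0, hv_sm, hv_E1]; norm_num [normSq_smul]) (by rw [normSq_smul, n]; norm_num)
  simpa [hv_O0, hv_sm, hv_E1, smul_smul] using this

theorem core2 (h : ![x, y, 0] ∈ icoLeech) (n : normSq x + normSq y = 4) : G6 x y 0 := by
  obtain ⟨a, ha, rfl⟩ := sub_zero x ▸ (lam23 h).2.1
  obtain ⟨b, hb, rfl⟩ := sub_zero y ▸ h.2.2.1
  obtain ⟨A, a1, rfl⟩ := mem_ico.1 ha
  obtain ⟨B, b1, rfl⟩ := mem_ico.1 hb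
  have nh : normSq icoH = 2 := coe_injective ((self_mul_star icoH).symm.trans h_star)
  have m : A.nr + B.nr = 8 ∧ A.ns + B.ns = 0 := tau_ind (by
    rw [map_mul, map_mul, nh] at n
    push_cast
    linear_combination 2 * n - normSq_hv A - normSq_hv B)
  have := a1.four; have := b1.four; have := nr_nonneg A; have := nr_nonneg B
  rcases (by omega : B.nr = 0 ∨ A.nr = 0 ∨ A.nr = 4 ∧ B.nr = 4) with o | o | o
  · rw [eq_O0 o, hv_O0, zero_mul] at n ⊢
    exact core0 (by simpa using n)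
  · rw [eq_O0 o, hv_O0, zero_mul] at n ⊢
    obtain ⟨a, b, c, d, e, f⟩ := core0 (x := B.hv * icoH) (by simpa using n)
    exact ⟨c, d, a, a, d, c⟩
  have := (short4 a1 o.1).1; have := (short4 b1 o.2).1
  have u := unit_of o.1 (by omega)
  have u' := unit_of o.2 (by omega)
  have l := lam_mul (star_mem ha) h
  obtain ⟨Y, y1, y2⟩ := mem_ico.1 (l.1 1)
  change Y.hv = star A.hv * (B.hv * icoH) at y2
  have ny := nr_of (A := Y) (B := Eh) (by rw [y2, map_mul, map_mul, normSq_star, u, u', hv_Eh, one_mul, one_mul])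
  rw [show Eh.nr = 8 by decide, show Eh.ns = 0 by decide] at ny
  rw [← mul_assoc, star_mul_self, u, coe_one, one_mul, ← y2, mul_zero] at l
  have := (gb6_sound ((short8 y1 ny.1).2 ny.2 (sub_zero Y.hv ▸ l.2.2.1) (add_zero (icoH + Y.hv) ▸ l.2.2.2))
    (by rw [ny.1, ny.2]; decide)).mul (u := A.hv) (by
      rw [hv_Eh, hv_O0, y2]
      simpa [u] using n) u
  rwa [hv_Eh, hv_O0, y2, mul_zero, unit_mul u] at this

theorem good_all (h : r ∈ icoLeech) (n : qip r r = 4) : Good r := by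
  obtain ⟨X, x1, x2⟩ := mem_ico.1 (h.1 0)
  obtain ⟨Y, y1, y2⟩ := mem_ico.1 (h.1 1)
  obtain ⟨Z, z1, z2⟩ := mem_ico.1 (h.1 2)
  obtain rfl : r = vec X Y Z := funext fun t => by fin_cases t; exacts [x2.symm, y2.symm, z2.symm]
  have m := norm_vec.1 n
  have n' := norm3.1 n
  have k : ∀ {X Y Z : Ic}, vec X Y Z ∈ icoLeech → X.Par → Y.Par → Z.Par → X.nr + Y.nr + Z.nr = 16 →
      X.ns + Y.ns + Z.ns = 0 → X.nr = 4 → Y.nr = 4 → G6 X.hv Y.hv Z.hv := fun {X Y Z} h a b c d e f g => by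
    have := (short4 a f).1; have := (short4 b g).1; have := (short8 c (by omega)).1.1
    rcases (by omega : X.ns = 0 ∨ Y.ns = 0) with o | o
    · exact core1 h (norm_vec.2 ⟨d, e⟩) f o g
    · obtain ⟨a, b, c, d, e, f⟩ := core1 (lam12 h) (norm_vec.2 (by omega)) g o f
      exact ⟨c, d, a, b, f, e⟩
  have := x1.four; have := y1.four; have := z1.four
  have := nr_nonneg X; have := nr_nonneg Y; have := nr_nonneg Z
  rcases (by omega : Z.nr = 0 ∨ Y.nr = 0 ∨ X.nr = 0 ∨ X.nr = 4 ∧ Y.nr = 4 ∨ X.nr = 4 ∧ Z.nr = 4 ∨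
    Y.nr = 4 ∧ Z.nr = 4) with o | o | o | o | o | o
  · obtain rfl := eq_O0 o
    rw [vec, hv_O0] at h ⊢
    rw [hv_O0] at n'
    exact (core2 h (by simpa using n')).1
  · obtain rfl := eq_O0 o
    rw [vec, hv_O0] at h ⊢
    rw [hv_O0] at n'
    exact (core2 (lam23 h) (by simpa using n')).2.1
  · obtain rfl := eq_O0 o
    rw [vec, hv_O0] at h ⊢
    rw [hv_O0] at n'
    exact (core2 (lam23 (lam12 h)) (by simpa using n')).2.2.2.2.1
  · exact (k h x1 y1 z1 m.1 m.2 o.1 o.2).1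
  · exact (k (lam23 h) x1 z1 y1 (by omega) (by omega) o.1 o.2).2.1
  · exact (k (lam23 (lam12 h)) y1 z1 x1 (by omega) (by omega) o.1 o.2).2.2.2.2.1

theorem rck_sound {a p : ℕ} (h : rck a p = true) (hp : p < 315) (hi : i < 315) (hj : apw 9 511 (jA a) i = j)
    (hj' : j < 315) : qrefl (qrefl (axv p) (axv i)) = qrefl (axv j) := by
  simp only [rck, axK_eq, nall_iff, frc_eq] at h
  obtain ⟨u, e⟩ := lin_sound (h i hi)
  refine qrefl_congr (u := (1 / 8 : ℝ) • u) (fun t => ?_) ((qip_refl (ax_ok hp).2.1 _ _).trans (ax_ok hi).2.1)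
    (ax_ok hj').2.1
  rw [smul_mul_assoc, ← hj, ← show _ = u * axv (apw 9 511 (jA a) i) t from e t]
  fin_cases t <;> simp [vec, hv_sub, hv_sm, hv_mul, ip_hv, qrefl, axv, smul_sub, smul_smul] <;> norm_num

end Cfsg.Agent.J8
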