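import Cfsg.Agent.J8.R
import Cfsg.Agent.J8.I5
import Cfsg.Agent.CoS.Abs

/-! # The icosian group `J₂` is the model; recognition of `J₂` -/

set_option autoImplicit false
set_option maxRecDepth 100000

namespace Cfsg.Agent.J8

open Cfsg Cfsg.Spor Cfsg.Agent.GT Cfsg.Agent.TT Cfsg.Agent.TC Cfsg.Agent.XL Cfsg.Agent.M24 Subgroup MulAction

/-- the reflections -/
noncomputable def RR (i : Fin 315) : twoJ2 := rf ⟨axv i, (ax_ok i.2).1⟩ (ax_ok i.2).2.1

theorem RR_inj : Function.Injective RR := fun i j e => Fin.ext (ax_inj i.2 j.2 (rf_inj e))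

theorem RR_gen {H : Subgroup twoJ2} (h : ∀ i, RR i ∈ H) (g : twoJ2) : g ∈ H := by
  have : twoJ2 ≤ H.map twoJ2.subtype := (closure_le _).2 fun f ⟨r, a, b⟩ => by
    obtain ⟨i, c, d⟩ := good_all r.2 a
    exact ⟨RR ⟨i, c⟩, h _, Equiv.ext fun x => Subtype.ext ((congrFun d x).symm.trans (b x).symm)⟩
  obtain ⟨k, a, b⟩ := this g.2
  exact Subtype.ext b ▸ a

/-- the graph of the action on reflections -/
noncomputable def EE : Subgroup (twoJ2 × X) where
  carrier := {p | ∀ i, p.1 * RR i * p.1⁻¹ = RR (p.2 • i)}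
  mul_mem' := fun {p q} a b i => by rw [Prod.snd_mul, mul_smul, ← a, ← b, Prod.fst_mul]; group
  one_mem' := fun i => by simp
  inv_mem' := fun {p} a i => by
    rw [Prod.fst_inv, Prod.snd_inv, ← smul_inv_smul p.2 i, ← a, inv_smul_smul]; group

theorem EE_mem {a : ℕ} {p : Fin 315} (ha : a < 15) (h : rck a p = true) : (RR p, m a) ∈ EE := fun i =>
  rf_conj (ax_ok p.2).2.1 _ _ (rck_sound h p.2 i.2 (ma.act a ha i).symm (m a • i).2)

theorem X_faithful {g : X} (h : ∀ i : Fin 315, g • i = i) : g = 1 := md.base g fun i _ => h i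

theorem X_trans (i : Fin 315) : ∃ g : X, g • (0 : Fin 315) = i := by
  have c : band (connChk f Al 0 l0t) (nall 315 l0t.has) = true := by decide +kernel
  rw [band_eq, Bool.and_eq_true, nall_iff] at c
  have : ∀ q ∈ l0t.keys, ∃ g : X, idx (g • (0 : Fin 315)) = q :=
    conn_gen c.1 ⟨1, by rw [one_smul]; rfl⟩ fun s hs b ⟨g, e⟩ =>
      ⟨m s * g, by rw [mul_smul, ma.act s (by clear e; revert s; decide), e]⟩
  exact (this i (T.has_sound (c.2 i i.2))).imp fun g e => Fin.ext e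

theorem isoX : Nonempty (J2 ≃* X) := by
  have c := ck2
  simp only [band_eq, Bool.and_eq_true] at c
  have e0 := EE_mem (p := 0) (by norm_num) c.1.1
  have s : ∀ g : X, g ∈ EE.map (MonoidHom.snd _ _) := fun g => by
    have a : Mb m [0, 5, 10, 14] ≤ EE.map (MonoidHom.snd _ _) := Mb.le (by
      simp only [List.forall_mem_cons]
      exact ⟨⟨_, e0, rfl⟩, ⟨_, EE_mem (p := 298) (by norm_num) c.1.2, rfl⟩,
        ⟨_, EE_mem (p := 304) (by norm_num) c.2.1, rfl⟩, ⟨_, EE_mem (p := 63) (by norm_num) c.2.2, rfl⟩, by simp⟩)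
    have b : lall Al (fun i => band (lsub (dw (lget wR 0 i)) [0, 5, 10, 14]) (eq [i] (dw (lget wR 0 i)))) = true := by
      decide +kernel
    simp only [lall_iff, band_eq, Bool.and_eq_true] at b
    exact Mb.le (fun i hi => a (((ev1 i).symm.trans (md.eq (b i hi).2)) ▸ Mb.ev' (b i hi).1))
      (exA.2.1.le (mem_top g))
  have s' : ∀ g, g ∈ EE.map (MonoidHom.fst _ _) := RR_gen fun i => by
    obtain ⟨k, rfl⟩ := X_trans i
    obtain ⟨p, a, rfl⟩ := s k
    exact ⟨_, mul_mem (mul_mem a e0) (inv_mem a), a 0⟩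
  obtain ⟨φ, e⟩ := Gr.exists_hom (M := EE) (fun p a b => Prod.ext b (X_faithful fun i => RR_inj (by
    rw [← a, b]; simp))) s'
  have t : ∀ g, (g, φ g) ∈ EE := fun g => by
    obtain ⟨p, a, rfl⟩ := s' g
    exact (e p a).symm ▸ a
  have k : center twoJ2 = φ.ker := le_antisymm (fun g hg => X_faithful fun i => RR_inj (by
      rw [← t g i, ← mem_center_iff.1 hg, mul_inv_cancel_right]))
    fun g hg => mem_center_iff.2 fun x => mem_cent1.1 (RR_gen (H := C1[g]) (fun i => mem_cent1.2 (by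
      have := t g i
      rw [show φ g = 1 from hg, one_smul] at this
      exact (commute_iff_conj.2 this).symm)) x)
  exact ⟨(QuotientGroup.quotientMulEquivOfEq k).trans (QuotientGroup.quotientKerEquivOfSurjective φ fun g =>
    let ⟨p, a, b⟩ := s g; ⟨p.1, (e p a).trans b⟩)⟩

theorem simpleX : IsSimpleGroup X :=
  let ⟨_, h⟩ := lt0.xp5
  haveI := CoS.simple5
  (CoS.simple lt0 le_rfl h (by rw [cardE5]; norm_num) (by rw [rkM]; norm_num)).1

theorem simpleJ2 : IsSimpleGroup J2 :=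
  let ⟨e⟩ := isoX
  haveI := simpleX
  e.isSimpleGroup

theorem cardJ2 : Nat.card J2 = 604800 :=
  let ⟨e⟩ := isoX
  (Nat.card_congr e.toEquiv).trans card_X

theorem isoJ2 {G : Type*} [Group G] [Finite G] {Q : Subgroup G} {z g x : G} (h : LT Q z g 2 60) (h2 : x * x = 1)
    (h1 : x ≠ 1) (n : ¬ IsConj x z) : Nonempty (J2 ≃* G) :=
  let ⟨e⟩ := isoX
  let ⟨φ, _⟩ := recog h h2 h1 n
  ⟨e.trans φ⟩

end Cfsg.Agent.J8
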