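import Cfsg.Agent.J8.D
import Cfsg.Agent.SZ.TA
import Cfsg.Agent.SZ.TB
import Cfsg.Agent.SZ.TC
import Cfsg.Agent.XL.Fac
import Cfsg.Agent.XL.Rel2
import Cfsg.Agent.TT.LargeS

/-! # A permutation model of `J₂` on 315 points -/

set_option autoImplicit false
set_option maxRecDepth 100000

namespace Cfsg.Agent.J8

open Cfsg Cfsg.Agent.GT Cfsg.Agent.TT Cfsg.Agent.TC Cfsg.Agent.XL Cfsg.Agent.M24 Subgroup MulAction

theorem pbJ : PB.{0} 5 (fun i => i) SzTC.base 604800 :=
  ((SzTA.cert.pb0.step (base := SzTB.base) SzTB.cert (by decide +kernel)).step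
    (base := SzTC.base) SzTC.cert (by decide +kernel)).congr (by decide +kernel)

/-- first tables -/
noncomputable def fB (i q : ℕ) : ℕ := apw (nat_lit 9) (nat_lit 511) (jB i) q
/-- action of the letters -/
noncomputable def f (i q : ℕ) : ℕ := apw (nat_lit 9) (nat_lit 511) (jA i) q

theorem exists_X : ∃ (Y : Subgroup (Equiv.Perm (Fin 315))) (m : ℕ → Y), Nat.card Y ≤ 604800 ∧
    Ma (Ω := Fin 315) Fin.val m f 15 315 := by
  obtain ⟨u, hu⟩ := invTab_sound (f := fB) (k := 5) (n := 315) (by decide +kernel)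
  have c : (SzTC.base.all fun l => band (llt 5 l) (ptEq 315 (apl fB l) fun q => q)) = true := by decide +kernel
  simp only [List.all_eq_true, band_eq, Bool.and_eq_true, llt_iff] at c
  let v : ℕ → closure (u '' {i | i < 5}) := fun i => if h : i < 5 then ⟨u i, subset_closure ⟨i, h, rfl⟩⟩ else 1
  have a : Ma (Ω := Fin 315) Fin.val v fB 5 315 :=
    ⟨Fin.val_injective, fun i hi x => by simpa [v, hi] using (hu i hi).2 x, fun x => x.2,
      fun q hq => ⟨⟨q, hq⟩, rfl⟩⟩
  exact ⟨_, _, (pbJ _ u (fun i hi => ⟨hi, (hu i hi).1⟩) fun l h => ⟨(c l h).1, ptEq_sound (c l h).2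
    (apl_evl fun i hi => (hu i ((c l h).1 i hi)).2) fun _ => rfl⟩).2, a.ext (wd := lget wA 0) (by decide +kernel)⟩

/-- the model -/
abbrev X : Type := exists_X.choose

/-- the letters -/
noncomputable def m : ℕ → X := exists_X.choose_spec.choose

/-- index of a point -/
abbrev idx : Fin 315 → ℕ := Fin.val

theorem ma : Ma idx m f 15 315 := exists_X.choose_spec.choose_spec.2

/-- generators -/
def Al : List ℕ := [0, 1, 2, 3, 4, 5, 6, 7, 8, 9, 10, 11, 12, 14]
/-- the centralizer -/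
def Kx : List ℕ := [0, 1, 2, 3, 4, 5, 6, 7, 8, 9]
/-- the base -/
def bs : List ℕ := [12, 10, 0]
/-- the extraspecial group -/
def Ql : List ℕ := [0, 1, 4, 5, 6]
/-- centralizer of the four-group -/
def Vl : List ℕ := [0, 1, 2, 3, 7, 8, 13]

theorem exA : Ex idx ⊤ (Mb m []) [l0, l1, l2] [] ∧ ⊤ = Mb m Al ∧ Nat.card (⊤ : Subgroup X) = 604800 :=
  ma.exact le_top card_nil (card_top.trans_le exists_X.choose_spec.choose_spec.1) (by decide +kernel)

theorem card_X : Nat.card X = 604800 := card_top.symm.trans exA.2.2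

theorem md : Md idx m f 15 bs := ma.md exA.1.last

theorem num : Md.Num idx 315 bs := ma.num (by decide)

theorem ev1 (i : ℕ) : evl m [i] = m i := one_mul _

/-- equality of words -/
noncomputable abbrev eq : List ℕ → List ℕ → Bool := eqw f 15 bs
/-- commuting words -/
noncomputable abbrev cb : List ℕ → List ℕ → Bool := cmb f 15 bs

theorem eK : enumChk f 15 315 bs Kx tK (fun w b => band
    (band (bor (!lall Ql fun i => cb w [i]) (inw f 15 bs [[], [0]] w)) (bor (!cb w [2]) (inw f 15 bs wE w)))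
    (band (bor (!cb w [1]) (band (lsub (dw (Nat.shiftRight b 100)) Vl) (eq w (dw (Nat.shiftRight b 100)))))
    (bor (!eq (w ++ w) []) (band
      (bor (!cb w [7]) (inw f 15 bs [[], [0], [1], [0, 1], [4], [0, 4]] w))
      (bor (inw f 15 bs [[], [0]] w) (force (Nat.land b (2 ^ 100 - 1)) fun c => band (lsub (dw c) Kx)
        (bor (eq (1 :: dw c) (dw c ++ w)) (eq (2 :: dw c) (dw c ++ w))))))))) = true := by decide +kernel

theorem cardK : Nat.card (Mb m Kx) = 1920 := md.card num eK (by decide +kernel)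

theorem cj1 {a b c : ℕ} (e : eq [b, a] [a, c] = true) : m a * m b * (m a)⁻¹ = m c :=
  mul_inv_eq_iff_eq_mul.2 (by simpa [evl, mul_assoc] using md.eq e)

theorem cj2 {a b c d : ℕ} (e : eq [b, a] [a, d, c] = true) : m a * m b * (m a)⁻¹ = m c * m d :=
  mul_inv_eq_iff_eq_mul.2 (by simpa [evl, mul_assoc] using md.eq e)

theorem cm1 {i j : ℕ} (h : cb [i] [j] = true) : Commute (m i) (m j) := by
  simpa [ev1] using ((md.cm_iff num).1 h).2

theorem gz : m 11 * m 0 * (m 11)⁻¹ = m 1 := cj1 (by decide +kernel)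

theorem ne10 : m 1 ≠ m 0 := by simpa [evl] using md.ne' num (w := [1]) (w' := [0]) (by decide +kernel)

theorem cK : C1[m 0] = Mb m Kx := by
  have l : Mb m Kx ≤ C1[m 0] := ev1 0 ▸ md.cent (by decide +kernel)
  refine le_antisymm (fun g hg => ?_) l
  have s : ⊤ ⊓ fxs X idx [0] = Mb m Kx :=
    (ma.exact (ls := Al) (Ls := [l0]) le_top cardK exA.2.2.le (by decide +kernel)).1.last
  have s' : ∀ g : X, idx (g • (0 : Fin 315)) = 0 → g ∈ Mb m Kx := fun g e => s.le ⟨trivial, mem_fxs.2 fun x hx => by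
    obtain rfl : x = 0 := Fin.ext (List.mem_singleton.1 hx)
    exact Fin.ext e⟩
  have c : nall 315 (fun q => bor (!Nat.beq (f 0 q) q) (bor (Nat.beq q 0)
    (wN.any fun w => band (lsub w Kx) (Nat.beq (apl f (11 :: w) 0) q)))) = true := by decide +kernel
  replace c := (nall_iff _ _).1 c _ (g • (0 : Fin 315)).2
  have z0 : m 0 • (0 : Fin 315) = 0 := Fin.ext ((ma.act 0 (by norm_num) 0).trans (by decide +kernel))
  have a : f 0 (idx (g • (0 : Fin 315))) = idx (g • (0 : Fin 315)) := by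
    rw [← ma.act 0 (by norm_num), ← mul_smul, ← mem_cent1.1 hg, mul_smul, z0]
  simp only [bor_eq, band_eq, Bool.or_eq_true, Bool.and_eq_true, List.any_eq_true, Nat.beq_eq, Bool.not_eq_true',
    ← Bool.not_eq_true] at c
  rcases c with c | c | ⟨w, -, c, d⟩
  · exact absurd a c
  · exact s' g c
  · have e := ma.ap (w := 11 :: w) (List.forall_mem_cons.2 ⟨by norm_num, fun i hi => by
      have := lsub_iff.1 c i hi; clear hi; revert i; decide⟩) 0
    have := l (s' (g⁻¹ * evl m (11 :: w)) (by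
      rw [mul_smul, show evl m (11 :: w) • (0 : Fin 315) = g • 0 from Fin.ext (e.trans d), inv_smul_smul]; rfl))
    rw [mul_mem_cancel_left (inv_mem hg), evl, mul_mem_cancel_left (l (Mb.ev' c))] at this
    exact absurd (gz.symm.trans (commute_iff_conj.1 (mem_cent1.1 this))) ne10

theorem lE : ∀ w ∈ wE, ∀ i ∈ w, i ∈ [0, 1, 2, 3] := by decide

theorem facts {g : X} (hg : Commute g (m 0)) :
    ((∀ i ∈ Ql, Commute g (m i)) → g = 1 ∨ g = m 0) ∧ (Commute g (m 2) → g ∈ Mb m [0, 1, 2, 3]) ∧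
    (Commute g (m 1) → g ∈ Mb m Vl) ∧ (g * g = 1 →
      (Commute g (m 7) → g = 1 ∨ g = m 0 ∨ g = m 1 ∨ g = m 1 * m 0 ∨ g = m 4 ∨ g = m 4 * m 0) ∧
      (g = 1 ∨ g = m 0 ∨ ∃ k ∈ Mb m Kx, g = k * m 1 * k⁻¹ ∨ g = k * m 2 * k⁻¹)) := by
  obtain ⟨w, b, a, rfl, p⟩ := md.enum num eK g (cK ▸ mem_cent1.2 hg)
  have k : ∀ i < 15, Commute (evl m w) (m i) → cb w [i] = true := fun i hi e =>
    (md.cm_iff num).2 ⟨⟨a, by simpa using hi⟩, ev1 i ▸ e⟩
  simp only [bor_eq, band_eq, Bool.or_eq_true, Bool.and_eq_true, Bool.not_eq_true', ← Bool.not_eq_true, inw,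
    List.any_eq_true, force_eq, lall_iff] at p
  obtain ⟨⟨p1, p2⟩, p3, p4⟩ := p
  refine ⟨fun h => ?_, fun h => ?_, fun h => ?_, fun h => ?_⟩
  · obtain ⟨x, c, d⟩ := p1.resolve_left fun o => o fun i hi => k i (by clear h; revert i; decide) (h i hi)
    rw [md.eq d]
    simp only [List.mem_cons, List.not_mem_nil, or_false] at c
    rcases c with rfl | rfl <;> simp [evl]
  · obtain ⟨x, c, d⟩ := p2.resolve_left fun o => o (k 2 (by norm_num) h)
    exact md.eq d ▸ Mb.ev (lE x c)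
  · obtain ⟨c, d⟩ := p3.resolve_left fun o => o (k 1 (by norm_num) h)
    exact md.eq d ▸ Mb.ev' c
  · obtain ⟨p5, p6⟩ := p4.resolve_left fun o => o ((md.eq_iff num).2
      ⟨⟨List.forall_mem_append.2 ⟨a, a⟩, by simp⟩, by rwa [evl_append]⟩)
    refine ⟨fun e => ?_, ?_⟩
    · obtain ⟨x, c, d⟩ := p5.resolve_left fun o => o (k 7 (by norm_num) e)
      rw [md.eq d]
      simp only [List.mem_cons, List.not_mem_nil, or_false] at c
      rcases c with rfl | rfl | rfl | rfl | rfl | rfl <;> simp [evl]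
    · rcases p6 with ⟨x, c, d⟩ | ⟨c, d⟩
      · rw [md.eq d]
        simp only [List.mem_cons, List.not_mem_nil, or_false] at c
        rcases c with rfl | rfl <;> simp [evl]
      · refine Or.inr (Or.inr ⟨_, Mb.ev' c, d.imp (fun d => ?_) fun d => ?_⟩) <;>
        exact eq_mul_inv_of_mul_eq (by simpa only [evl, evl_append] using (md.eq d).symm)

theorem lQ : Lists m 15 (Mb m Ql) wQ := md.lists num (t := tQ) (by decide +kernel)

theorem esQ : ES (Mb m Ql) (m 0) := md.es num lQ (by decide +kernel)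

theorem lt0 : LT (Mb m Ql) (m 0) (m 11) 2 60 := by
  have c : Nat.card (Mb m Ql) = 32 :=
    md.card num (t := tQ) (P := fun _ _ => true) (by decide +kernel) (by decide +kernel)
  refine ⟨⟨esQ, fun g hc => ?_, cK ▸ md.norms (ws := wQ) (by decide +kernel)⟩, c, by rw [cK, cardK, c],
    gz ▸ Mb.of (by decide), gz ▸ ne10⟩
  rcases (facts (mem_cent1.1 (cent_le_cent1 esQ.mem hc))).1
    fun i hi => mem_cent1.1 (cent_le_cent1 (Mb.of hi) hc) with rfl | rfl
  exacts [one_mem _, esQ.mem]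

theorem hs (H : Subgroup X) (h : ∀ u ∈ C1[m 0] ⊓ C1[m 1], u * u ∈ H) : C1[m 0] ⊓ C1[m 1] ≤ H := by
  have e : C1[m 0] ⊓ C1[m 1] = Mb m Vl := le_antisymm
    (fun g hg => (facts (mem_cent1.1 hg.1)).2.2.1 (mem_cent1.1 hg.2))
    (le_inf (ev1 0 ▸ md.cent (by decide +kernel)) (ev1 1 ▸ md.cent (by decide +kernel)))
  rw [e] at h ⊢
  exact md.sqgen (sq := fun i => sqV.getD i []) (by decide +kernel) H h

theorem v4 : V4 (m 0) (m 1) (m 4) (m 10) :=
  ⟨esQ.zz, gz ▸ conj_mul_self _ esQ.zz, cm1 (by decide +kernel), esQ.ne,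
    fun e => esQ.ne (conj_eq_one_iff.1 (gz.trans e)), ne10, cj1 (by decide +kernel), cj2 (by decide +kernel),
    cj2 (by decide +kernel), cj1 (by decide +kernel)⟩

end Cfsg.Agent.J8
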