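import Cfsg.Agent.J8.M
import Cfsg.Agent.J8.B

/-! # Groups of Hall-Janko type: the amalgam -/

set_option autoImplicit false
set_option maxRecDepth 100000

namespace Cfsg.Agent.J8

open Cfsg Cfsg.Agent.GT Cfsg.Agent.TT Cfsg.Agent.TC Cfsg.Agent.XL Cfsg.Agent.M24 Subgroup MulAction

/-- inverse letters -/
noncomputable def iv : ℕ → ℕ := lget [0, 1, 2, 3, 4, 5, 6, 8, 7, 9, 10, 12, 11, 13, 14] 0
/-- letters in the normalizer of the four-group -/
def Nl : List ℕ := [0, 1, 2, 3, 4, 5, 6, 7, 8, 10, 11, 12, 13]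

theorem nl_norm : ∀ i ∈ Nl, m i ∈ N[VV (m 0) (m 1)] := fun i hi => by
  have := md.norms (ls := Nl) (ls0 := [0, 1]) (ws := [[0], [1], [0, 1]]) (by decide +kernel) (Mb.of hi)
  rwa [Mb, show m '' {i | i ∈ [0, 1]} = {m 0, m 1} by simp [← Set.image_pair]; rfl] at this

theorem inv_ok : ∀ i < 11, iv i < 11 ∧ m (iv i) * m i = 1 ∧ (iv i = 10 ↔ i = 10) ∧
    (i ≠ 10 → Commute (m i) (m 0)) := fun i hi => by
  have c : nall 11 (fun i => band (band (Nat.ble (Nat.succ (iv i)) 11) (eq [i, iv i] []))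
    (band (Nat.beq (iv i) 10 == Nat.beq i 10) (bor (Nat.beq i 10) (cb [i] [0])))) = true := by decide +kernel
  replace c := (nall_iff _ _).1 c i hi
  simp only [band_eq, bor_eq, Bool.and_eq_true, Bool.or_eq_true, md.eq_iff num, md.cm_iff num,
    Nat.ble_eq, evl, one_mul, beq_iff_eq, Nat.beq_eq] at c
  exact ⟨c.1.1, c.1.2.2, by rw [← Nat.beq_eq, c.2.1, Nat.beq_eq], fun e => (c.2.2.resolve_left e).2⟩

variable {G : Type*} [Group G] {K M : Subgroup (X × G)} {z j g : G} {v : ℕ → X × G}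

/-- the starting amalgam -/
structure St (v : ℕ → X × G) (K M : Subgroup (X × G)) (z : G) : Prop where
  am : AM m v iv 15
  rh : RH (m 0) (m 1) z K M
  k : ∀ i ∈ Kx, v i ∈ K
  n : ∀ i ∈ Nl, v i ∈ M

theorem St.of (a : AM m v iv 14) (h : RH (m 0) (m 1) z K M) (k : ∀ i ∈ Kx, v i ∈ K) (n : ∀ i ∈ Nl, v i ∈ M)
    (jj : j * j = 1) : St (Function.update v 14 (m 14, j)) K M z := by
  refine ⟨⟨fun i hi => ?_, fun i hi => ?_⟩, h, fun i hi => ?_, fun i hi => ?_⟩
  · by_cases e : i = 14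
    · simp [e]
    · rw [Function.update_of_ne e, a.fst i (by omega)]
  · by_cases e : i = 14
    · have : m 14 * m 14 = 1 := by simpa [evl] using md.eq (w := [14, 14]) (w' := []) (by decide +kernel)
      simp [e, show iv 14 = 14 from rfl, this, jj]
    · have b := a.inv i (by omega)
      rw [Function.update_of_ne e, Function.update_of_ne b.1.ne]
      exact ⟨by omega, b.2⟩
  · rw [Function.update_of_ne (by revert i; decide)]; exact k i hi
  · rw [Function.update_of_ne (by revert i; decide)]; exact n i hi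

theorem St.upd (s : St v K M z) (jj : j * j = 1) : St (Function.update v 14 (m 14, j)) K M z :=
  St.of ⟨fun i hi => s.am.fst i (by omega), fun i hi => ⟨by revert i; decide, (s.am.inv i (by omega)).2⟩⟩
    s.rh s.k s.n jj

theorem exists_St (h : RH (m 0) (m 1) z K M) : ∃ v, St v K M z := by
  obtain ⟨u, a, b, c⟩ := h.start (j := 10) v4.nb
    (by simpa [evl] using md.eq (w := [10, 10]) (w' := []) (by decide +kernel)) inv_ok
  obtain ⟨v, a', e0, e1⟩ := a.extend (k := 14) ⟨md.inj, fun i hi => md.act i (by omega), md.base⟩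
    (wd := fun i => [[7, 10, 4], [4, 10, 8], [4, 2, 4]].getD (i - 11) []) (by decide +kernel) (by norm_num)
  have n : ∀ i < 11, i ∈ Nl → v i ∈ M := fun i hi o => e0 i hi ▸ c i hi (nl_norm i o)
  refine ⟨_, St.of a' h (fun i hi => ?_) (fun i hi => ?_) (one_mul 1)⟩
  · have : i < 10 := by revert i; decide
    exact e0 i (by omega) ▸ b i (by omega) (by omega)
  · have : i < 11 ∨ i = 11 ∨ i = 12 ∨ i = 13 := by revert i; decide
    rcases this with o | rfl | rfl | rfl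
    · exact n i o hi
    all_goals
      rw [e1 _ (by norm_num) (by norm_num)]
      exact Mb.le (ls := [2, 4, 7, 8, 10]) (fun i hi => n i (by revert i; decide) (by revert i; decide))
        (Mb.ev (by decide))

theorem St.gk (s : St v K M z) : Gr (Mb v Kx) := s.rh.kz.gr.mono (Mb.le s.k)
theorem St.gn (s : St v K M z) : Gr (Mb v Nl) := s.rh.gn.mono (Mb.le s.n)

/-- the check of a relation -/
noncomputable def rc (w w' : List ℕ) : Bool :=
  band (bor (band (lsub w Kx) (lsub w' Kx)) (band (lsub w Nl) (lsub w' Nl))) (eq w w')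

theorem St.rel (s : St v K M z) {w w' : List ℕ} (e : rc w w' = true) :
    evl (fun i => (v i).2) w = evl (fun i => (v i).2) w' := by
  simp only [rc, band_eq, bor_eq, Bool.and_eq_true, Bool.or_eq_true] at e
  rw [← evl_snd', ← evl_snd']
  exact congrArg _ (e.1.elim (fun o => s.am.eq md s.gk (Mb.ev' o.1) (Mb.ev' o.2) e.2)
    fun o => s.am.eq md s.gn (Mb.ev' o.1) (Mb.ev' o.2) e.2)

theorem St.c1 (s : St v K M z) {a b c : ℕ} (e : rc [b, a] [a, c] = true) :
    (v a).2 * (v b).2 * (v a).2⁻¹ = (v c).2 :=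
  mul_inv_eq_iff_eq_mul.2 (by simpa [evl, mul_assoc] using s.rel e)

theorem St.c2 (s : St v K M z) {a b c d : ℕ} (e : rc [b, a] [a, d, c] = true) :
    (v a).2 * (v b).2 * (v a).2⁻¹ = (v c).2 * (v d).2 :=
  mul_inv_eq_iff_eq_mul.2 (by simpa [evl, mul_assoc] using s.rel e)

theorem St.cm (s : St v K M z) {a b : ℕ} (e : rc [b, a] [a, b] = true) : Commute (v a).2 (v b).2 :=
  commute_iff_conj.2 (s.c1 e)

theorem St.sq (s : St v K M z) {a : ℕ} (e : rc [a, a] [] = true) : (v a).2 * (v a).2 = 1 := by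
  simpa [evl] using s.rel e

theorem St.ne (s : St v K M z) {i : ℕ} (hi : i ∈ Kx) (e : (!eq [i] []) = true) : (v i).2 ≠ 1 := fun o => by
  have l : i < 15 := by clear e o; revert i; decide
  have := congrArg Prod.fst (s.rh.kz.gr' _ (s.k i hi) o)
  rw [s.am.fst i l] at this
  simp [(md.eq_iff (w := [i]) (w' := []) num).2 ⟨⟨by simpa using l, by simp⟩, (ev1 i).trans this⟩] at e

theorem St.z0 (s : St v K M z) : (v 0).2 = z :=
  congrArg Prod.snd (s.rh.kz.gr.ext (s.k 0 (by decide)) s.rh.kz.mem (s.am.fst 0 (by norm_num)))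

theorem St.facts (s : St v K M z) (hg : Commute g (v 0).2) :
    (Commute g (v 2).2 → g ∈ VV (v 0).2 (v 1).2 ⊔ VV (v 2).2 (v 3).2) ∧ (g * g = 1 →
      (Commute g (v 7).2 → g = 1 ∨ g = (v 0).2 ∨ g = (v 1).2 ∨ g = (v 1).2 * (v 0).2 ∨ g = (v 4).2 ∨
        g = (v 4).2 * (v 0).2) ∧ (g = 1 ∨ g = (v 0).2 ∨ IsConj (v 1).2 g ∨ IsConj (v 2).2 g)) := by
  obtain ⟨c, h⟩ := s.rh.kz.snd g (mem_cent1.2 (s.z0 ▸ hg))
  obtain ⟨-, a, -, b⟩ := J8.facts (g := c) (mem_cent1.1 (s.rh.kz.c1 h))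
  have l : ∀ i ∈ Kx, i < 15 := by decide
  have k : ∀ i ∈ Kx, Commute g (v i).2 → Commute c (m i) := fun i hi e =>
    s.am.fst i (l i hi) ▸ (s.rh.kz.comm' h (s.k i hi) e).map (MonoidHom.fst X G)
  have t : ∀ p ∈ Mb v Kx, c = p.1 → g = p.2 := fun p hp e => congrArg Prod.snd (s.rh.kz.gr.ext h (Mb.le s.k hp) e)
  have t1 : ∀ i ∈ Kx, c = m i → g = (v i).2 := fun i hi e => t _ (Mb.of hi) (e.trans (s.am.fst i (l i hi)).symm)
  have t2 : ∀ i ∈ Kx, c = m i * m 0 → g = (v i).2 * (v 0).2 := fun i hi e =>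
    t _ (mul_mem (Mb.of hi) (Mb.of (by decide))) (by rw [e, ← s.am.fst i (l i hi), ← s.am.fst 0 (by norm_num)]; rfl)
  refine ⟨fun e => ?_, fun e => ?_⟩
  · obtain ⟨p, hp, d⟩ := s.am.lift (by decide) (a (k 2 (by decide) e))
    rw [t p (Mb.mono (by decide) hp) d.symm]
    refine mem_comap.1 (Mb.le (S := comap (MonoidHom.snd X G) _) ?_ hp)
    simp only [List.forall_mem_cons]
    exact ⟨mem_sup_left (zVV _ _), mem_sup_left (sVV _ _), mem_sup_right (zVV _ _), mem_sup_right (sVV _ _), by simp⟩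
  · obtain ⟨b1, b2⟩ := b (congrArg Prod.fst (s.rh.kz.gr' _ (mul_mem h h) e))
    refine ⟨fun o => (b1 (k 7 (by decide) o)).imp (t 1 (one_mem _)) (Or.imp (t1 0 (by decide))
      (Or.imp (t1 1 (by decide)) (Or.imp (t2 1 (by decide)) (Or.imp (t1 4 (by decide)) (t2 4 (by decide)))))),
      b2.imp (t 1 (one_mem _)) (Or.imp (t1 0 (by decide)) fun ⟨q, hq, d⟩ => ?_)⟩
    obtain ⟨p, hp, rfl⟩ := s.am.lift l hq
    refine d.imp (fun d => ?_) fun d => ?_ <;>
    exact isConj_iff.2 ⟨p.2, (t _ (mul_mem (mul_mem hp (Mb.of (by decide))) (inv_mem hp))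
      (by rw [d, ← s.am.fst _ (by norm_num)]; rfl)).symm⟩

theorem St.k3 (s : St v K M z) : K3 (v 0).2 (v 1).2 (v 11).2 :=
  ⟨s.sq (by decide +kernel), s.sq (by decide +kernel), s.cm (by decide +kernel), s.ne (by decide) (by decide +kernel),
    by simpa [evl, mul_assoc] using s.rel (w := [11, 11, 11]) (w' := []) (by decide +kernel),
    s.c1 (by decide +kernel), s.c2 (by decide +kernel)⟩

theorem St.k3' (s : St v K M z) : K3 (v 2).2 (v 3).2 (v 7).2 :=
  ⟨s.sq (by decide +kernel), s.sq (by decide +kernel), s.cm (by decide +kernel), s.ne (by decide) (by decide +kernel),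
    by simpa [evl, mul_assoc] using s.rel (w := [7, 7, 7]) (w' := []) (by decide +kernel),
    s.c1 (by decide +kernel), s.c2 (by decide +kernel)⟩

theorem St.cjr (s : St v K M z) : IsConj (v 0).2 (v 4).2 :=
  (isConj_iff.2 ⟨_, s.k3.xz⟩).trans (isConj_iff.2 ⟨_, s.c1 (a := 9) (by decide +kernel)⟩)

variable [Finite G]

theorem St.ld (s : St v K M z) (nc : ¬ IsConj (v 0).2 (v 2).2) :
    LD (v 0).2 (v 1).2 (v 2).2 (v 3).2 (v 11).2 (v 7).2 := by
  have zt : Commute (v 0).2 (v 2).2 := s.cm (by decide +kernel)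
  have xt : Commute (v 11).2 (v 2).2 := s.cm (by decide +kernel)
  have xu : Commute (v 11).2 (v 3).2 := s.cm (by decide +kernel)
  have yz : Commute (v 7).2 (v 0).2 := s.cm (by decide +kernel)
  have xy : Commute (v 11).2 (v 7).2 := s.cm (by decide +kernel)
  refine ⟨s.k3, s.k3', zt, xt, xu, yz, xy, fun g a => (s.facts a).1, fun a ha => ?_, nc, (v 10).2, (v 9).2,
    s.cjr.trans (isConj_iff.2 ⟨_, s.c1 (a := 11) (by decide +kernel)⟩), s.cm (by decide +kernel), fun o => ?_,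
    s.cm (by decide +kernel), ?_⟩
  · have nA : ∀ n : G, n * (v 0).2 * n⁻¹ ∈ VV (v 0).2 (v 1).2 → n * (v 1).2 * n⁻¹ ∈ VV (v 0).2 (v 1).2 →
        n * (v 2).2 * n⁻¹ ∈ VV (v 0).2 (v 1).2 ⊔ VV (v 2).2 (v 3).2 →
        n * (v 3).2 * n⁻¹ ∈ VV (v 0).2 (v 1).2 ⊔ VV (v 2).2 (v 3).2 →
        n ∈ N[VV (v 0).2 (v 1).2 ⊔ VV (v 2).2 (v 3).2] := fun n a b c d => mem_normalizer_of_conj fun y hy => by
      refine (sup_le ((closure_le _).2 ?_) ((closure_le _).2 ?_) :
        _ ≤ comap (MulAut.conj n).toMonoidHom (VV (v 0).2 (v 1).2 ⊔ VV (v 2).2 (v 3).2)) hy <;>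
      rintro _ (rfl | rfl)
      exacts [mem_sup_left a, mem_sup_left b, c, d]
    have VU : ∀ a ∈ VV (v 0).2 (v 1).2, ∀ b ∈ VV (v 2).2 (v 3).2, Commute a b := fun a ha b hb =>
      s.k3'.cV' (s.k3.cV' zt.symm xt.symm ha).symm (s.k3.cV' yz xy.symm ha).symm hb
    obtain ⟨p, hp, q, hq, rfl⟩ := (mem_sup_of_le_norm fun v hv => cent_le_norm _ fun _ hw =>
      (VU _ hv _ hw).eq.symm).1 ha
    by_cases q1 : q = 1
    · exact Or.inl (by rwa [q1, mul_one])
    obtain ⟨b, hb, rfl⟩ := s.k3'.cj hq q1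
    have bV : ∀ a ∈ VV (v 0).2 (v 1).2, b * a * b⁻¹ = a := fun a ha => by
      have := s.k3.cV' yz xy.symm ha
      rcases hb with rfl | rfl | rfl
      exacts [by simp, commute_iff_conj.1 this, commute_iff_conj.1 (this.mul_left this)]
    have bn := nA b ((bV _ (zVV _ _)).symm ▸ zVV _ _) ((bV _ (sVV _ _)).symm ▸ sVV _ _)
      (mem_sup_right hq) (mem_sup_right (conj_mem_of_mem_norm (s.k3'.bN hb) (sVV _ _)))
    by_cases p1 : p = 1
    · exact Or.inr ⟨b, bn, by rw [p1, one_mul]⟩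
    obtain ⟨d, hd, rfl⟩ := s.k3.cj hp p1
    have dU : ∀ a ∈ VV (v 2).2 (v 3).2, d * a * d⁻¹ = a := fun a ha => by
      have := s.k3'.cV xt xu ha
      rcases hd with rfl | rfl | rfl
      exacts [by simp, commute_iff_conj.1 this, commute_iff_conj.1 (this.mul_left this)]
    have dn := nA d hp (conj_mem_of_mem_norm (s.k3.bN hd) (sVV _ _))
      ((dU _ (zVV _ _)).symm ▸ mem_sup_right (zVV _ _)) ((dU _ (sVV _ _)).symm ▸ mem_sup_right (sVV _ _))
    have n2 := s.c2 (a := 13) (b := 2) (c := 0) (d := 2) (by decide +kernel)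
    have nn := nA (v 13).2 (by rw [s.c1 (c := 0) (by decide +kernel)]; exact zVV _ _)
      (by rw [s.c1 (c := 1) (by decide +kernel)]; exact sVV _ _)
      (by rw [n2]; exact mul_mem (mem_sup_left (zVV _ _)) (mem_sup_right (zVV _ _)))
      (by rw [s.c2 (c := 1) (d := 3) (by decide +kernel)]
          exact mul_mem (mem_sup_left (sVV _ _)) (mem_sup_right (sVV _ _)))
    refine Or.inr ⟨b * d * (v 13).2, mul_mem (mul_mem bn dn) nn, ?_⟩
    calc _ = b * (d * (v 0).2 * d⁻¹) * b⁻¹ * (b * (d * (v 2).2 * d⁻¹) * b⁻¹) := by rw [bV _ hp, dU _ (zVV _ _)]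
      _ = b * (d * ((v 0).2 * (v 2).2) * d⁻¹) * b⁻¹ := by group
      _ = _ := by rw [← n2]; group
  · exact s.k3.s1 (mul_eq_right.1 ((s.c2 (a := 10) (by decide +kernel)).symm.trans (commute_iff_conj.1 o)))
  · rw [s.c1 (c := 4) (by decide +kernel)]
    simpa [evl, mul_assoc] using s.rel (w := [4, 1, 4, 1]) (w' := [0]) (by decide +kernel)

theorem St.cls (s : St v K M z) {Q : Subgroup G} (h : LQ Q z) (gg : g * g = 1) (g1 : g ≠ 1) :
    IsConj (v 0).2 g ∨ IsConj (v 2).2 g := by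
  obtain ⟨T, hT, -, l⟩ := h.exists_syl
  obtain ⟨k, -, e⟩ := syl_elt (a := 1) Nat.prime_two hT (mem_top g) (by rw [pow_one, _root_.sq, gg])
  have c : IsConj (k * g * k⁻¹) g := (isConj_iff.2 ⟨k, rfl⟩).symm
  rcases ((s.facts (s.z0 ▸ mem_cent1.1 (l e))).2 (conj_mul_self k gg)).2 with o | o | o | o
  exacts [absurd (conj_eq_one_iff.1 o) g1, Or.inl (o ▸ c), Or.inl (((isConj_iff.2 ⟨_, s.k3.xz⟩).trans o).trans c),
    Or.inr (o.trans c)]

theorem exists_RH {Q : Subgroup G} (h : LT Q z g 2 60) : ∃ K M : Subgroup (X × G), RH (m 0) (m 1) z K M := by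
  obtain ⟨π, hB⟩ := h.xp5
  obtain ⟨π0, hA⟩ := lt0.xp5
  obtain ⟨Δ, K, hK⟩ := exists_KH5 hA hB
  obtain ⟨M, r⟩ := hK.rh (by simpa only [gz] using hs)
  exact ⟨K, M, by simpa only [gz] using r⟩

theorem LD.conj {z s t u x y : G} (h : LD z s t u x y) {t' : G} (c : IsConj t t') :
    Nonempty (C1[t'] ≃* (Multiplicative (ZMod 2) × Multiplicative (ZMod 2)) × alternatingGroup (Fin 5)) ∧
      Nonempty (N[TT.Op 2 C1[t']] ≃* alternatingGroup (Fin 4) × alternatingGroup (Fin 5)) := by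
  obtain ⟨g, rfl⟩ := isConj_iff.1 c
  obtain ⟨⟨a⟩, ⟨b⟩⟩ := h.main
  rw [← conj_cent1, ← conj_Op, ← conj_normalizer]
  exact ⟨⟨((MulAut.conj g).subgroupMap _).symm.trans a⟩, ⟨((MulAut.conj g).subgroupMap _).symm.trans b⟩⟩

theorem main82 {Q : Subgroup G} (h : LT Q z g 2 60) {t : G} (ht : orderOf t = 2) (htz : ¬ IsConj t z) :
    Nonempty (C1[t] ≃* (Multiplicative (ZMod 2) × Multiplicative (ZMod 2)) × alternatingGroup (Fin 5)) ∧
      Nonempty (N[TT.Op 2 C1[t]] ≃* alternatingGroup (Fin 4) × alternatingGroup (Fin 5)) := by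
  obtain ⟨K, M, r⟩ := exists_RH h
  obtain ⟨v, s⟩ := exists_St r
  have c := (s.cls h.toLQ (mul_self_of_orderOf ht) (ne_one_of_orderOf ht)).resolve_left fun o => htz (s.z0 ▸ o.symm)
  exact (s.ld fun o => htz (s.z0 ▸ (o.trans c).symm)).conj c

end Cfsg.Agent.J8
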