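import Cfsg.Agent.J8.N
import Cfsg.Agent.J8.C
import Cfsg.Agent.J8.TU
import Cfsg.Agent.J8.TA
import Cfsg.Agent.J8.TX

/-! # Recognition of groups of Hall-Janko type -/

set_option autoImplicit false
set_option maxRecDepth 100000

namespace Cfsg.Agent.J8

open Cfsg Cfsg.Agent.GT Cfsg.Agent.TT Cfsg.Agent.TC Cfsg.Agent.XL Cfsg.Agent.M24 Subgroup MulAction

theorem idx_snd {X G Ω : Type*} [Group X] [Group G] [MulAction X Ω] {idx : Ω → ℕ} {m : ℕ → X} {f : ℕ → ℕ → ℕ}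
    {iv : ℕ → ℕ} {k : ℕ} {bs ls ls0 : List ℕ} {v : ℕ → X × G} (h : AM m v iv k) (d : Md idx m f k bs)
    {mems ex base : List (List ℕ)} {iv' : ℕ → ℕ} {k' sub : ℕ} (hC : Cert k' iv' base sub 1) (hk : ls.length = k')
    (hm : ∀ l ∈ mems, Gr (Mb v l)) (he : ∀ l ∈ ex, evl (fun i => (v i).2) l = 1)
    (hc : stepChk f iv k bs mems ex ls ls0 iv' base sub = true) :
    Mb (fun i => (v i).2) ls ≤ Mb (fun i => (v i).2) ls0 := by
  subst hk
  simp only [stepChk, band_eq, bor_eq, Bool.and_eq_true, Bool.or_eq_true, llt_iff, lsub_iff, nall_iff,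
    Nat.ble_eq, Nat.beq_eq, lm_iff, List.all_eq_true, List.any_eq_true, beq_iff_eq,
    Bool.not_eq_true'] at hc
  obtain ⟨⟨h1, -⟩, h3, h4⟩ := hc
  have hl : ∀ i < ls.length, lget ls 0 i < k := fun i hi => h1 _ (by
    rw [lget_eq_getD, List.getD_eq_getElem _ _ hi]; exact List.getElem_mem hi)
  rw [← Mb.range ls]
  have := hC.relIndex (fun i => (v (lget ls 0 i)).2) (Mb (fun i => (v i).2) ls0) (fun i hi => ⟨(h3 i hi).1.1, by
    rw [(h3 i hi).1.2]; exact congrArg Prod.snd (h.inv _ (hl i hi)).2⟩) (fun l hl' => ⟨(h4 l hl').1, by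
      rw [evl_lmap (u := fun i => (v i).2)]
      rcases (h4 l hl').2 with ⟨e, a, rfl⟩ | ⟨⟨e, a, b⟩, c⟩
      · exact he _ a
      · rw [← evl_snd', h.eq d (hm e a) (Mb.ev b) (one_mem _) c]; rfl⟩)
    fun i hi hs => Mb.of ((h3 i hi).2.resolve_left (by simp [hs]))
  exact relIndex_eq_one.1 (by omega)

/-- letters in the normalizer of the second four-group -/
def Ul : List ℕ := [0, 1, 2, 3, 7, 8, 11, 12, 14]
/-- the relation -/
def gd : List ℕ := [14, 0, 4, 14, 9, 11, 4, 12, 9]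
/-- the wrong relation -/
def bd : List ℕ := [14, 0, 4, 14, 9, 11, 0, 4, 12, 9]

theorem s1 : stepChk f iv 15 bs [Nl] [[14, 11, 14, 11], [0, 14, 0, 14, 0, 14], [14, 2, 14, 2], [14, 3, 14, 3],
    [14, 7, 14, 8]] Ul [0, 1, 2, 3, 7, 8] J8TU.iv J8TU.base 63 = true ∧
    orbLe f Ul [0, 1, 2, 3, 7, 8] 0 315 15 oU = true := by decide +kernel

theorem s2 : stepChk f iv 15 bs [Kx, Nl, Ul] [gd] Al Kx J8TA.iv J8TA.base 1023 = true ∧
    orbLe f Al Kx 0 315 315 l0t = true := by decide +kernel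

theorem s3 : stepChk f iv 15 bs [Kx, Nl, Ul] [bd] Al Kx J8TX.iv J8TX.base 1023 = true := by decide +kernel

variable {G : Type*} [Group G] [Finite G] {K M : Subgroup (X × G)} {z g : G} {v : ℕ → X × G}

omit [Finite G] in
theorem St.one (s : St v K M z) {l : List ℕ} (e : eq l [] = true) (h : evl (fun i => (v i).2) l = 1) :
    evl v l = 1 :=
  Prod.ext ((s.am.ev ((md.eq_iff num).1 e).1.1).trans (md.eq e)) ((evl_snd' l).trans h)

/-- the completed amalgam -/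
structure Sj (v : ℕ → X × G) (K M : Subgroup (X × G)) (z : G) : Prop extends St v K M z where
  nc : ¬ IsConj (v 0).2 (v 2).2
  jL : (v 14).2 ∈ LL (v 2).2 (v 11).2
  jx : (v 14).2 * (v 11).2 * (v 14).2⁻¹ = (v 11).2⁻¹
  zj : (v 0).2 * (v 14).2 * (v 0).2 = (v 14).2 * (v 0).2 * (v 14).2

theorem St.sj (s : St v K M z) (nc : ¬ IsConj (v 0).2 (v 2).2) : ∃ v, Sj v K M z :=
  let ⟨_, a, _, b, c, d⟩ := (s.ld nc).k4.exj3 (s.ld nc).nle
  ⟨_, s.upd c, by simpa using nc, by simpa using a, by simpa using b, by simpa using d⟩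

omit [Finite G] in
theorem Sj.jj (s : Sj v K M z) : (v 14).2 * (v 14).2 = 1 := congrArg Prod.snd (s.am.inv 14 (by norm_num)).2

theorem Sj.gu (s : Sj v K M z) : Gr (Mb v Ul) := by
  have l := s.ld s.nc
  have i := inv_of_sq s.jj
  have k : ∀ a b : G, Commute a (v 14).2 → b * a = 1 → 1 * b * (v 14).2 * a * (v 14).2 = 1 := fun a b c d => by
    rw [one_mul, mul_assoc b, ← c.eq, ← mul_assoc, d, one_mul, s.jj]
  refine (s.am.step md J8TU.cert rfl (by simp [s.gn]) ?_ (s.gn.mono (Mb.mono (by decide))) s1.1 ma.inj ma.act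
    (x := 0) rfl s1.2).1
  simp only [List.forall_mem_cons]
  refine ⟨s.one (by decide +kernel) ?_, s.one (by decide +kernel) ?_,
    s.one (by decide +kernel) (k _ _ (l.UL (zVV _ _) s.jL) l.k'.zz),
    s.one (by decide +kernel) (k _ _ (l.UL (sVV _ _) s.jL) l.k'.ss),
    s.one (by decide +kernel) (k _ _ (l.yL s.jL) (congrArg Prod.snd (s.am.inv 7 (by norm_num)).2)), by simp⟩
  · have := s.jx
    rw [i] at this
    simp only [evl, one_mul, mul_assoc] at this ⊢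
    rw [this, mul_inv_cancel]
  · have := conj_mul_self (v 14).2 l.k.zz
    rw [i] at this
    nth_rw 2 [← s.zj] at this
    simpa only [evl, one_mul, mul_assoc] using this

theorem Sj.alt (s : Sj v K M z) : evl (fun i => (v i).2) gd = 1 ∨ evl (fun i => (v i).2) bd = 1 := by
  have l := s.ld s.nc
  have rr : (v 4).2 * (v 4).2 = 1 := s.sq (by decide +kernel)
  have cc : (v 9).2 * (v 9).2 = 1 := s.sq (by decide +kernel)
  have ry : Commute (v 4).2 (v 7).2 := s.cm (by decide +kernel)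
  have rz : Commute (v 4).2 (v 0).2 := s.cm (by decide +kernel)
  have rs := s.c2 (a := 4) (b := 1) (c := 1) (d := 0) (by decide +kernel)
  have xi : (v 12).2 = (v 11).2⁻¹ := eq_inv_of_mul_eq_one_left (congrArg Prod.snd (s.am.inv 11 (by norm_num)).2)
  have yi : (v 8).2 = (v 7).2⁻¹ := eq_inv_of_mul_eq_one_left (congrArg Prod.snd (s.am.inv 7 (by norm_num)).2)
  have cr := s.c1 (a := 9) (b := 4) (c := 1) (by decide +kernel)
  have cz := s.c1 (a := 9) (b := 0) (c := 0) (by decide +kernel)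
  have cy := s.c1 (a := 9) (b := 7) (c := 8) (by decide +kernel)
  obtain ⟨a, b⟩ := sym4 l.k.zz rr s.jj rz.symm s.zj (l.braid rr ry rz rs
    (xi ▸ yi ▸ s.c2 (by decide +kernel)) (fun g a b c => by
      rcases ((s.facts a).2 b).1 c with o | o | o | o | o
      exacts [Or.inl (o ▸ one_mem _), Or.inl (o ▸ zVV _ _), Or.inl (o ▸ sVV _ _), Or.inl (o ▸ l.k.szV), Or.inr o])
    s.jL s.jx s.jj)
  have wy : Commute ((v 14).2 * ((v 4).2 * (v 0).2) * (v 14).2) (v 7).2 :=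
    ((l.yL s.jL).symm.mul_left (ry.mul_left l.yz.symm)).mul_left (l.yL s.jL).symm
  have ww := conj_mul_self (v 14).2 (mul_self_of_commute rr l.k.zz rz)
  rw [inv_of_sq s.jj] at ww
  simp only [gd, bd, evl, one_mul, xi]
  simp only [mul_assoc]
  rw [show (v 14).2 * ((v 4).2 * ((v 0).2 * (v 14).2)) = (v 14).2 * ((v 4).2 * (v 0).2) * (v 14).2 by group]
  generalize (v 14).2 * ((v 4).2 * (v 0).2) * (v 14).2 = w at a b wy ww
  have k : ∀ a : G, (v 11).2 * (v 9).2 * a * ((v 11).2 * (v 9).2)⁻¹ =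
      (v 11).2 * ((v 9).2 * a * (v 9).2⁻¹) * (v 11).2⁻¹ := fun a => by group
  have e1 := k ((v 4).2 * (v 0).2)
  have e2 := k (v 0).2
  have e3 := k (v 4).2
  have e4 := k (v 7).2
  rw [← conj_mul (b := (v 9).2), cr, cz, l.k.xsz] at e1
  rw [cz, l.k.xz] at e2
  rw [cr, l.k.xs] at e3
  rw [cy, yi, commute_iff_conj.1 l.xy.inv_right] at e4
  have n : (v 4).2 ≠ (v 0).2 := fun o => by
    rw [o, commute_iff_conj.1 l.k.zs] at rs
    exact l.k.z1 (mul_eq_left.1 rs.symm)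
  have t : ∀ a : G, (v 11).2 * (v 9).2 * w * ((v 11).2 * (v 9).2)⁻¹ = a →
      (v 9).2 * ((v 11).2⁻¹ * (a * ((v 11).2 * ((v 9).2 * w)))) = 1 := fun a o => by
    rw [← o, ← ww]
    calc _ = (v 9).2 * (v 9).2 * (w * w) := by group
      _ = _ := by rw [cc, one_mul]
  rcases ((s.facts (e1 ▸ (commute_conj_iff _).2 a)).2 (conj_mul_self _ ww)).1
    (Commute.inv_right_iff.1 (e4 ▸ (commute_conj_iff _).2 wy)) with o | o | o | o | o | o
  · exact absurd (b (Or.inl (conj_eq_one_iff.1 o))) n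
  · exact absurd (b (Or.inr (Or.inl (by simpa using o.trans e1.symm)))) n
  · exact absurd (b (Or.inr (Or.inr (Or.inl (by simpa using o.trans e2.symm))))) n
  · exact absurd (b (Or.inr (Or.inr (Or.inr (by simpa using o.trans e3.symm))))) n
  · exact Or.inl (t _ o)
  · exact Or.inr (by simpa only [mul_assoc] using t _ o)

theorem Sj.ga (s : Sj v K M z) : Gr (Mb v Al) := by
  rcases s.alt with o | o
  · exact (s.am.step md J8TA.cert rfl (by simp [s.gk, s.gn, s.gu])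
      (List.forall_mem_singleton.2 (s.one (by decide +kernel) o)) s.gk s2.1 ma.inj ma.act (x := 0) rfl s2.2).1
  · have := Mb.le (S := C1[(v 0).2]) (fun i hi => s.z0 ▸ s.rh.kz.c2 (s.k i hi))
      (idx_snd s.am md J8TX.cert rfl (by simp [s.gk, s.gn, s.gu]) (List.forall_mem_singleton.2 o) s3
        (Mb.of (i := 10) (by decide)))
    exact absurd (mul_eq_right.1 ((s.c2 (a := 10) (by decide +kernel)).symm.trans
      (commute_iff_conj.1 (mem_cent1.1 this)))) s.k3.s1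

theorem clsX (x : X) (h2 : x * x = 1) (h1 : x ≠ 1) : ∃ g, x = g * m 0 * g⁻¹ ∨ x = g * m 2 * g⁻¹ := by
  obtain ⟨T, hT, -, l⟩ := lt0.toLQ.exists_syl
  obtain ⟨k, -, e⟩ := syl_elt (a := 1) Nat.prime_two hT (mem_top x) (by rw [pow_one, _root_.sq, h2])
  rcases ((facts (mem_cent1.1 (l e))).2.2.2 (conj_mul_self k h2)).2 with o | o | ⟨q, -, o | o⟩
  · exact absurd (conj_eq_one_iff.1 o) h1
  · exact ⟨k⁻¹, Or.inl (by rw [← o]; group)⟩
  · exact ⟨k⁻¹ * q * m 11, Or.inl (by rw [← gz] at o; rw [show x = k⁻¹ * (k * x * k⁻¹) * k by group, o]; group)⟩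
  · exact ⟨k⁻¹ * q, Or.inr (by rw [show x = k⁻¹ * (k * x * k⁻¹) * k by group, o]; group)⟩

theorem Sj.iso (s : Sj v K M z) : ∃ φ : X ≃* G, ∀ p ∈ K ⊔ M, φ p.1 = p.2 := by
  obtain ⟨φ, a, e⟩ := s.rh.kz.exists_hom' s.am (ls := Al) (ls0 := Kx) (by decide) s.ga exA.2.1.symm
    (fun i hi => ⟨by revert i; decide, s.k i hi⟩) cK.le esQ.zz gz v4.bz
  have l := s.ld s.nc
  have b : ∀ i ∈ Al, φ (m i) = (v i).2 := fun i hi =>
    s.am.fst i (by revert i; decide) ▸ e _ (mem_sup_right (Mb.of hi))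
  have r : ∀ i ∈ Al, (v i).2 ∈ φ.range := fun i hi => ⟨_, b i hi⟩
  have rV : ∀ i ∈ Al, ∀ j ∈ Al, VV (v i).2 (v j).2 ≤ φ.range := fun i hi j hj => (closure_le _).2 (by
    rintro _ (rfl | rfl)
    exacts [r i hi, r j hj])
  have rB : ∀ g ∈ LL (v 2).2 (v 11).2, g ∈ N[VV (v 0).2 (v 1).2] → g ∈ φ.range := fun g hg n => by
    obtain ⟨c, hc, w, hw, rfl⟩ := l.k4.dec hg (conj_mem_of_mem_norm n (zVV _ _))
    refine mul_mem ?_ (rV 0 (by decide) 1 (by decide) hw)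
    rcases hc with rfl | rfl | rfl
    exacts [one_mem _, r 11 (by decide), mul_mem (r 11 (by decide)) (r 11 (by decide))]
  have t : φ.range = ⊤ := eq_top_of_two l.k.zz l.k'.zz l.k.z1 (b 0 (by decide) ▸ (s.rh.kz.range e).2)
    (l.sup.ge.trans (sup_le (rV 2 (by decide) 3 (by decide)) fun g hg => by
      by_cases n : g ∈ N[VV (v 0).2 (v 1).2]
      · exact rB g hg n
      · obtain ⟨u, hu, c, hc, rfl⟩ := l.k4.dc s.jL s.jx hg n
        exact mul_mem (mul_mem (rV 0 (by decide) 1 (by decide) hu) (r 14 (by decide))) (rB c hc.1 hc.2))) s.nc (by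
    rintro _ ⟨x, rfl⟩ h2 h1
    obtain ⟨g, o⟩ := clsX x (a (by rwa [map_mul, map_one])) fun o => h1 (by rw [o, map_one])
    refine ⟨φ g, ⟨g, rfl⟩, o.imp (fun o => ?_) fun o => ?_⟩ <;>
    rw [o, map_mul, map_mul, map_inv, b _ (by decide)])
  refine ⟨MulEquiv.ofBijective φ ⟨a, MonoidHom.range_eq_top.1 t⟩, fun p hp => e p (sup_le le_sup_left
    (s.rh.le (a := v 4) (b := v 10) ?_ ⟨s.n 4 (by decide), ?_⟩ ⟨s.n 10 (by decide), ?_⟩ le_sup_left) hp)⟩
  · rw [s.am.fst 4 (by norm_num), s.am.fst 10 (by norm_num)]; exact v4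
  exacts [mem_sup_right (Mb.of (by decide)), mem_sup_right (Mb.of (by decide))]

theorem rel0 {Q : Subgroup G} (h : LQ Q z) (r : RH (m 0) (m 1) z K M) {x : G} (h2 : x * x = 1) (h1 : x ≠ 1)
    (n : ¬ IsConj x z) : ∃ φ : X ≃* G, ∀ p ∈ K ⊔ M, φ p.1 = p.2 := by
  obtain ⟨v, s⟩ := exists_St r
  have c := (s.cls h h2 h1).resolve_left fun o => n (s.z0 ▸ o.symm)
  obtain ⟨v, s⟩ := s.sj fun o => n (s.z0 ▸ (o.trans c).symm)
  exact s.iso

theorem recog {Q : Subgroup G} (h : LT Q z g 2 60) {x : G} (h2 : x * x = 1) (h1 : x ≠ 1) (n : ¬ IsConj x z) :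
    ∃ φ : X ≃* G, φ (m 0) = z :=
  let ⟨_, _, r⟩ := exists_RH h
  let ⟨φ, e⟩ := rel0 h.toLQ r h2 h1 n
  ⟨φ, e _ (mem_sup_left r.kz.mem)⟩

end Cfsg.Agent.J8
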